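import Cfsg.Agent.Lib.Ward.Setup

/-!
# Non-abelian groups of order `pq` inside a finite group
-/

set_option autoImplicit false

namespace Cfsg.Agent.Lib.FrobAct.Basic

open Cfsg.Agent.Lib.Ward.Setup

variable {Γ : Type*} [Group Γ] [Finite Γ]

/-- A non-abelian subgroup of order `pq`, with `a` generating a normal subgroup of order `p`. -/
structure IsF (p q : ℕ) (A : Subgroup Γ) (a : Γ) : Prop where
  hp : p.Prime
  hq : q.Prime
  hpq : p ≠ q
  card : Nat.card A = p * q
  aA : a ∈ A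
  a1 : a ≠ 1
  ap : a ^ p = 1
  anorm : ∀ b ∈ A, b * a * b⁻¹ ∈ Subgroup.zpowers a
  nonab : ∃ b ∈ A, b * a ≠ a * b

namespace IsF

variable {p q : ℕ} {A : Subgroup Γ} {a : Γ} (h : IsF p q A a)
include h

theorem dvd_cases {d : ℕ} (hd : d ∣ p * q) : d = 1 ∨ d = p ∨ d = q ∨ d = p * q := by
  obtain ⟨k₁, k₂, h1, h2, rfl⟩ := (Nat.dvd_mul).mp hd
  rcases (Nat.dvd_prime h.hp).mp h1 with rfl | rfl <;> rcases (Nat.dvd_prime h.hq).mp h2 with rfl | rfl <;>
    simp

theorem orderOf_a : orderOf a = p := by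
  haveI : Fact p.Prime := ⟨h.hp⟩
  exact orderOf_eq_prime h.ap h.a1

/-- The order of an element is `p` or `q`. -/
theorem order_cases {c : Γ} (hc : c ∈ A) (hc1 : c ≠ 1) : orderOf c = p ∨ orderOf c = q := by
  have hd : orderOf c ∣ p * q := by
    rw [← h.card]
    exact Subgroup.orderOf_dvd_natCard A hc
  rcases h.dvd_cases hd with h1 | h1 | h1 | h1
  · exact absurd (orderOf_eq_one_iff.mp h1) hc1
  · exact Or.inl h1
  · exact Or.inr h1
  · exfalso
    have hle : Subgroup.zpowers c ≤ A := (Subgroup.zpowers_le).mpr hc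
    have heq : Subgroup.zpowers c = A := by
      apply Subgroup.eq_of_le_of_card_ge hle
      rw [Nat.card_zpowers, h1, h.card]
    obtain ⟨b, hb, hba⟩ := h.nonab
    have h2 : b ∈ Subgroup.zpowers c := by rw [heq]; exact hb
    have h3 : a ∈ Subgroup.zpowers c := by rw [heq]; exact h.aA
    obtain ⟨i, rfl⟩ := Subgroup.mem_zpowers_iff.mp h2
    obtain ⟨j, rfl⟩ := Subgroup.mem_zpowers_iff.mp h3
    exact hba ((Commute.refl c).zpow_zpow i j).eq

/-- The order of a non-trivial element is prime. -/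
theorem order_prime {c : Γ} (hc : c ∈ A) (hc1 : c ≠ 1) : (orderOf c).Prime := by
  rcases h.order_cases hc hc1 with h1 | h1
  · rw [h1]; exact h.hp
  · rw [h1]; exact h.hq

/-- Symmetry of generation. -/
theorem mem_symm {c d : Γ} (hc : c ∈ A) (hc1 : c ≠ 1) (hd : d ∈ Subgroup.zpowers c) (hd1 : d ≠ 1) :
    c ∈ Subgroup.zpowers d :=
  mem_zpowers_symm (h.order_prime hc hc1) (pow_orderOf_eq_one c) hd hd1

/-- A subgroup containing two independent elements contains `A`. -/
theorem gen (H : Subgroup Γ) {c c' : Γ} (hc : c ∈ A) (hc' : c' ∈ A) (hc1 : c ≠ 1)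
    (hcc : c' ∉ Subgroup.zpowers c) (hcH : c ∈ H) (hc'H : c' ∈ H) : A ≤ H := by
  have hpp := h.order_prime hc hc1
  set B : Subgroup Γ := H ⊓ A with hB
  have hBA : B ≤ A := inf_le_right
  have hd : Nat.card B ∣ p * q := by
    rw [← h.card]
    exact Subgroup.card_dvd_of_le hBA
  have hcB : Subgroup.zpowers c ≤ B := (Subgroup.zpowers_le).mpr ⟨hcH, hc⟩
  have hd2 : orderOf c ∣ Nat.card B := by
    rw [← Nat.card_zpowers]
    exact Subgroup.card_dvd_of_le hcB
  have hne : Nat.card B ≠ orderOf c := by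
    intro he
    have : Subgroup.zpowers c = B := by
      apply Subgroup.eq_of_le_of_card_ge hcB
      rw [Nat.card_zpowers, he]
    apply hcc
    rw [this]
    exact ⟨hc'H, hc'⟩
  have hB1 : Nat.card B = p * q := by
    rcases h.dvd_cases hd with h1 | h1 | h1 | h1
    · rw [h1] at hd2
      exact absurd (Nat.dvd_one.mp hd2) hpp.ne_one
    · rcases h.order_cases hc hc1 with h2 | h2
      · exact absurd (h1.trans h2.symm) hne
      · rw [h1, h2] at hd2
        exact absurd ((Nat.prime_dvd_prime_iff_eq h.hq h.hp).mp hd2) h.hpq.symm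
    · rcases h.order_cases hc hc1 with h2 | h2
      · rw [h1, h2] at hd2
        exact absurd ((Nat.prime_dvd_prime_iff_eq h.hp h.hq).mp hd2) h.hpq
      · exact absurd (h1.trans h2.symm) hne
    · exact h1
  have : B = A := by
    apply Subgroup.eq_of_le_of_card_ge hBA
    rw [hB1, h.card]
  rw [← this]
  exact inf_le_left

/-- The elements of order dividing `p` are the powers of `a`. -/
theorem mem_zpowers_of_pow {c : Γ} (hc : c ∈ A) (hcp : c ^ p = 1) : c ∈ Subgroup.zpowers a := by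
  by_contra hcon
  haveI : Fact p.Prime := ⟨h.hp⟩
  have hP1 : IsPGroup p (Subgroup.zpowers a) := by
    apply IsPGroup.of_card (n := 1)
    rw [Nat.card_zpowers, h.orderOf_a, pow_one]
  have hc1 : c ≠ 1 := fun h1 => hcon (by rw [h1]; exact Subgroup.one_mem _)
  have hP2 : IsPGroup p (Subgroup.zpowers c) := by
    apply IsPGroup.of_card (n := 1)
    rw [Nat.card_zpowers, orderOf_eq_prime hcp hc1, pow_one]
  have hN : Subgroup.zpowers c ≤ Subgroup.normalizer (Subgroup.zpowers a : Set Γ) := by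
    rw [Subgroup.zpowers_le]
    rw [Subgroup.mem_normalizer_iff]
    have hconj : ∀ b ∈ A, ∀ x ∈ Subgroup.zpowers a, b * x * b⁻¹ ∈ Subgroup.zpowers a := by
      intro b hb x hx
      obtain ⟨i, rfl⟩ := Subgroup.mem_zpowers_iff.mp hx
      rw [← conj_zpow]
      exact Subgroup.zpow_mem _ (h.anorm b hb) i
    intro x
    refine ⟨hconj c hc x, fun hx => ?_⟩
    have h1 := hconj c⁻¹ (A.inv_mem hc) _ hx
    simpa [mul_assoc] using h1
  have hS := IsPGroup.to_sup_of_normal_left' hP1 hP2 hN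
  have hle : A ≤ Subgroup.zpowers a ⊔ Subgroup.zpowers c :=
    h.gen _ h.aA hc h.a1 hcon (Subgroup.mem_sup_left (Subgroup.mem_zpowers a))
      (Subgroup.mem_sup_right (Subgroup.mem_zpowers c))
  have hAp : IsPGroup p A := hS.to_le hle
  obtain ⟨k, hk⟩ := IsPGroup.iff_card.mp hAp
  have hqd : q ∣ p ^ k := by
    rw [← hk, h.card]
    exact dvd_mul_left q p
  exact h.hpq ((Nat.prime_dvd_prime_iff_eq h.hq h.hp).mp (h.hq.dvd_of_dvd_pow hqd)).symm

/-- Elements outside `⟨a⟩` have order `q`. -/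
theorem orderOf_of_notMem {c : Γ} (hc : c ∈ A) (hca : c ∉ Subgroup.zpowers a) : orderOf c = q := by
  have hc1 : c ≠ 1 := fun h1 => hca (by rw [h1]; exact Subgroup.one_mem _)
  rcases h.order_cases hc hc1 with h1 | h1
  · exfalso
    apply hca
    apply h.mem_zpowers_of_pow hc
    rw [← h1]
    exact pow_orderOf_eq_one c
  · exact h1

omit h in
/-- A conjugation preserving a subgroup of a finite group normalizes it. -/
theorem mem_normalizer_of_conj (K : Subgroup Γ) {b : Γ} (hb : ∀ x ∈ K, b * x * b⁻¹ ∈ K) :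
    b ∈ Subgroup.normalizer (K : Set Γ) := by
  have hle : K.map (MulAut.conj b).toMonoidHom ≤ K := by
    rintro _ ⟨x, hx, rfl⟩
    exact hb x hx
  have hc : Nat.card (K.map (MulAut.conj b).toMonoidHom) = Nat.card K :=
    Subgroup.card_map_of_injective (MulEquiv.injective _)
  have heq : K.map (MulAut.conj b).toMonoidHom = K :=
    Subgroup.eq_of_le_of_card_ge hle (le_of_eq hc.symm)
  rw [Subgroup.mem_normalizer_iff]
  intro x
  refine ⟨hb x, fun hx => ?_⟩
  rw [← heq] at hx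
  obtain ⟨y, hy, hyx⟩ := hx
  have h1 : b * y * b⁻¹ = b * x * b⁻¹ := hyx
  have h2 : y = x := by simpa using h1
  rwa [← h2]

/-- Conjugates of `c` outside `⟨a⟩`. -/
theorem conj_notMem {b c : Γ} (hc : c ∈ A) (hca : c ∉ Subgroup.zpowers a) (hb : b ∈ A)
    (hbc : b ∉ Subgroup.zpowers c) : b * c * b⁻¹ ∉ Subgroup.zpowers c := by
  intro hmem
  have hc1 : c ≠ 1 := fun h1 => hca (by rw [h1]; exact Subgroup.one_mem _)
  have hN : ∀ g ∈ A, g * c * g⁻¹ ∈ Subgroup.zpowers c → g ∈ Subgroup.normalizer (Subgroup.zpowers c : Set Γ) := by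
    intro g _ hg
    apply mem_normalizer_of_conj
    intro x hx
    obtain ⟨i, rfl⟩ := Subgroup.mem_zpowers_iff.mp hx
    rw [← conj_zpow]
    exact Subgroup.zpow_mem _ hg i
  have hbN := hN b hb hmem
  have hcN : c ∈ Subgroup.normalizer (Subgroup.zpowers c : Set Γ) :=
    Subgroup.le_normalizer (Subgroup.mem_zpowers c)
  have hle := h.gen _ hc hb hc1 hbc hcN hbN
  have h1 : a * c * a⁻¹ ∈ Subgroup.zpowers c :=
    (Subgroup.mem_normalizer_iff.mp (hle h.aA) c).mp (Subgroup.mem_zpowers c)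
  have h2 : c * a * c⁻¹ ∈ Subgroup.zpowers a := h.anorm c hc
  -- the commutator lies in both
  have h3 : a * c * a⁻¹ * c⁻¹ ∈ Subgroup.zpowers c :=
    Subgroup.mul_mem _ h1 (Subgroup.inv_mem _ (Subgroup.mem_zpowers c))
  have h4 : a * c * a⁻¹ * c⁻¹ ∈ Subgroup.zpowers a := by
    have e : a * c * a⁻¹ * c⁻¹ = a * (c * a * c⁻¹)⁻¹ := by group
    rw [e]
    exact Subgroup.mul_mem _ (Subgroup.mem_zpowers a) (Subgroup.inv_mem _ h2)
  have h5 : a * c * a⁻¹ * c⁻¹ = 1 := by
    by_contra hne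
    have h6 := h.mem_symm hc hc1 h3 hne
    have h7 : Subgroup.zpowers (a * c * a⁻¹ * c⁻¹) ≤ Subgroup.zpowers a :=
      (Subgroup.zpowers_le).mpr h4
    exact hca (h7 h6)
  have hac : a * c = c * a := by
    calc a * c = (a * c * a⁻¹ * c⁻¹) * (c * a) := by group
      _ = c * a := by rw [h5, one_mul]
  have hle2 := h.gen (Subgroup.centralizer {a}) h.aA hc h.a1 hca
    (Subgroup.mem_centralizer_singleton_iff.mpr rfl)
    (Subgroup.mem_centralizer_singleton_iff.mpr hac.symm)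
  obtain ⟨b₀, hb₀, hb₀a⟩ := h.nonab
  exact hb₀a (Subgroup.mem_centralizer_singleton_iff.mp (hle2 hb₀))

/-- There is an element outside `⟨a⟩`. -/
theorem exists_notMem : ∃ c ∈ A, c ∉ Subgroup.zpowers a := by
  obtain ⟨b, hb, hba⟩ := h.nonab
  refine ⟨b, hb, fun hmem => hba ?_⟩
  obtain ⟨i, rfl⟩ := Subgroup.mem_zpowers_iff.mp hmem
  exact ((Commute.refl a).zpow_left i).eq

/-- `a` is not a power of `c` outside `⟨a⟩`. -/
theorem a_notMem {c : Γ} (hc : c ∈ A) (hca : c ∉ Subgroup.zpowers a) : a ∉ Subgroup.zpowers c := by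
  intro hmem
  have hc1 : c ≠ 1 := fun h1 => hca (by rw [h1]; exact Subgroup.one_mem _)
  exact hca (h.mem_symm hc hc1 hmem h.a1)

/-- Conjugation by elements of `A` preserves `⟨a⟩`. -/
theorem conj_mem {b x : Γ} (hb : b ∈ A) (hx : x ∈ Subgroup.zpowers a) :
    b * x * b⁻¹ ∈ Subgroup.zpowers a := by
  obtain ⟨i, rfl⟩ := Subgroup.mem_zpowers_iff.mp hx
  rw [← conj_zpow]
  exact Subgroup.zpow_mem _ (h.anorm b hb) i

/-- Every element of `A` is `a^i d` with `d ∈ ⟨c⟩` if `c ∉ ⟨a⟩`. -/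
theorem eq_zpow_mul {b c : Γ} (hc : c ∈ A) (hca : c ∉ Subgroup.zpowers a) (hb : b ∈ A) :
    ∃ i : ℤ, ∃ d ∈ Subgroup.zpowers c, b = a ^ i * d := by
  have hcA : Subgroup.zpowers c ≤ A := (Subgroup.zpowers_le).mpr hc
  let P : Subgroup Γ :=
    { carrier := {x | ∃ i : ℤ, ∃ d ∈ Subgroup.zpowers c, x = a ^ i * d}
      mul_mem' := by
        rintro _ _ ⟨i, d, hd, rfl⟩ ⟨j, e, he, rfl⟩
        obtain ⟨k, hk⟩ := Subgroup.mem_zpowers_iff.mp (h.conj_mem (hcA hd) (Subgroup.zpow_mem _ (Subgroup.mem_zpowers a) j))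
        refine ⟨i + k, d * e, Subgroup.mul_mem _ hd he, ?_⟩
        rw [zpow_add, hk]
        group
      one_mem' := ⟨0, 1, Subgroup.one_mem _, by simp⟩
      inv_mem' := by
        rintro _ ⟨i, d, hd, rfl⟩
        obtain ⟨k, hk⟩ := Subgroup.mem_zpowers_iff.mp (h.conj_mem (A.inv_mem (hcA hd)) (Subgroup.zpow_mem _ (Subgroup.mem_zpowers a) (-i)))
        refine ⟨k, d⁻¹, Subgroup.inv_mem _ hd, ?_⟩
        rw [hk]
        simp only [mul_inv_rev, inv_inv, zpow_neg]
        group }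
  have hle : A ≤ P := h.gen P h.aA hc h.a1 hca ⟨1, 1, Subgroup.one_mem _, by simp⟩
    ⟨0, c, Subgroup.mem_zpowers c, by simp⟩
  exact hle hb

/-- `q` divides `p - 1`. -/
theorem q_dvd : q ∣ p - 1 := by
  classical
  obtain ⟨c, hc, hca⟩ := h.exists_notMem
  have hord : orderOf c = q := h.orderOf_of_notMem hc hca
  haveI hpF : Fact p.Prime := ⟨h.hp⟩
  haveI hqF : Fact q.Prime := ⟨h.hq⟩
  have hoa : orderOf a = p := h.orderOf_a
  obtain ⟨m, hm⟩ : ∃ m : ℕ, c * a * c⁻¹ = a ^ m := by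
    obtain ⟨m, hm⟩ := (mem_powers_iff_mem_zpowers).mpr (h.anorm c hc)
    exact ⟨m, hm.symm⟩
  have hpow : ∀ i : ℕ, c ^ i * a * (c ^ i)⁻¹ = a ^ (m ^ i) := by
    intro i
    induction i with
    | zero => simp
    | succ i ih =>
      have e : c ^ (i + 1) * a * (c ^ (i + 1))⁻¹ = c * (c ^ i * a * (c ^ i)⁻¹) * c⁻¹ := by
        rw [pow_succ']; group
      rw [e, ih, ← conj_pow, hm, ← pow_mul, pow_succ, mul_comm]
  have hmq : ((m : ZMod p)) ^ q = 1 := by
    have h1 := hpow q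
    rw [← hord, pow_orderOf_eq_one, hord] at h1
    simp only [one_mul, inv_one, mul_one] at h1
    have h2 : a ^ (m ^ q) = a ^ 1 := by rw [← h1, pow_one]
    have h3 := (pow_eq_pow_iff_modEq).mp h2
    rw [hoa] at h3
    have h4 := (ZMod.natCast_eq_natCast_iff _ _ p).mpr h3
    push_cast at h4
    exact h4
  have hm0 : (m : ZMod p) ≠ 0 := by
    intro h0
    rw [h0, zero_pow hqF.out.ne_zero] at hmq
    exact zero_ne_one hmq
  let u : (ZMod p)ˣ := Units.mk0 (m : ZMod p) hm0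
  have hu1 : u ^ q = 1 := by
    ext
    simpa [u] using hmq
  have hune : u ≠ 1 := by
    intro hu
    have h5 : (m : ZMod p) = ((1 : ℕ) : ZMod p) := by
      have := congrArg Units.val hu
      simpa [u] using this
    have h6 := (ZMod.natCast_eq_natCast_iff _ _ p).mp h5
    have h7 : a ^ m = a ^ 1 := by
      apply (pow_eq_pow_iff_modEq).mpr
      rw [hoa]
      exact h6
    rw [← hm, pow_one] at h7
    have hcomm : c * a = a * c := by
      calc c * a = (c * a * c⁻¹) * c := by group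
        _ = a * c := by rw [h7]
    have hle := h.gen (Subgroup.centralizer ({a} : Set Γ)) h.aA hc h.a1 hca
      (Subgroup.mem_centralizer_singleton_iff.mpr rfl)
      (Subgroup.mem_centralizer_singleton_iff.mpr hcomm)
    obtain ⟨b₀, hb₀, hb₀a⟩ := h.nonab
    exact hb₀a (Subgroup.mem_centralizer_singleton_iff.mp (hle hb₀))
  have hord2 : orderOf u = q := orderOf_eq_prime hu1 hune
  have h8 := orderOf_dvd_card (x := u)
  rw [hord2, ZMod.card_units_eq_totient, Nat.totient_prime h.hp] at h8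
  exact h8

end IsF

end Cfsg.Agent.Lib.FrobAct.Basic
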