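import Cfsg.Agent.Lib.FrobAct.Weights
import Cfsg.Agent.Lib.HallHigman.FixedPoints
import Cfsg.Agent.Lib.HallHigman.Section
import Cfsg.Agent.Lib.Solvable.Fitting
import Cfsg.Agent.Lib.FPFThompson.Main

/-!
# Irreducible modules for `X ⋊ A`, with `A` Frobenius of order `pq`
-/

set_option autoImplicit false

namespace Cfsg.Agent.Lib.FrobAct.Irr

open Cfsg Cfsg.Agent.Lib.Core.Basic Cfsg.Agent.Lib.FPFThompson.Main
open Cfsg.Agent.Lib.Ward.Norm Cfsg.Agent.Lib.Ward.Setup Cfsg.Agent.Lib.Ward.Elem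
open Cfsg.Agent.Lib.FrobAct.Basic Cfsg.Agent.Lib.FrobAct.Weights Cfsg.Agent.Lib.Coprime.Action
open scoped commutatorElement

/-- An automorphism of coprime prime order fixing the Fitting subgroup is trivial. -/
theorem fix_of_fix_fitting {Y : Type*} [Group Y] [Finite Y] [Group.IsSolvable Y] (φ : MulAut Y) {p : ℕ}
    (hp : p.Prime) (hφ : φ ^ p = 1) (hcop : p.Coprime (Nat.card Y))
    (hF : ∀ x ∈ fittingSubgroup Y, φ x = x) (x : Y) : φ x = x := by
  have hmem : x⁻¹ * φ x ∈ fittingSubgroup Y := by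
    apply Cfsg.Agent.Lib.Solvable.Fitting.centralizer_fittingSubgroup_le
    rw [Subgroup.mem_centralizer_iff]
    intro g hg
    have hgn : x * g * x⁻¹ ∈ fittingSubgroup Y :=
      (inferInstance : (fittingSubgroup Y).Normal).conj_mem g hg x
    have h1 := hF _ hgn
    rw [map_mul, map_mul, map_inv, hF g hg] at h1
    calc g * (x⁻¹ * φ x) = x⁻¹ * (x * g * x⁻¹) * φ x := by group
      _ = x⁻¹ * (φ x * g * (φ x)⁻¹) * φ x := by rw [h1]
      _ = x⁻¹ * φ x * g := by group
  set f := x⁻¹ * φ x with hf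
  have hφx : φ x = x * f := by rw [hf]; group
  have hφf : φ f = f := hF f hmem
  have hpow : ∀ k : ℕ, (φ ^ k) x = x * f ^ k := by
    intro k
    induction k with
    | zero => simp
    | succ k ih =>
      rw [pow_succ', MulAut.mul_apply, ih, map_mul, hφx, map_pow, hφf, pow_succ', mul_assoc]
  have h2 := hpow p
  rw [hφ] at h2
  have h3 : f ^ p = 1 := by
    have h4 : x = x * f ^ p := h2
    exact (mul_eq_left.mp h4.symm)
  have h5 : orderOf f ∣ p := orderOf_dvd_of_pow_eq_one h3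
  have h6 : orderOf f ∣ Nat.card Y := orderOf_dvd_natCard f
  have h7 : orderOf f = 1 := Nat.eq_one_of_dvd_coprimes hcop h5 h6
  rw [hφx, orderOf_eq_one_iff.mp h7, mul_one]

variable {Γ : Type*} [Group Γ] [Finite Γ]
variable (V : Type*) [AddCommGroup V] [Finite V] [DistribMulAction Γ V]

/-- The standing hypotheses. -/
structure Irr (r p q : ℕ) (A : Subgroup Γ) (a : Γ) (X : Subgroup Γ) : Prop where
  F : IsF p q A a
  Xn : X.Normal
  top : X ⊔ A = ⊤
  rprime : r.Prime
  Vexp : ∀ v : V, r • v = 0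
  Vr : ∃ k, Nat.card V = r ^ k
  Ar : (Nat.card A).Coprime r
  AV : (Nat.card A).Coprime (Nat.card V)
  AX : (Nat.card A).Coprime (Nat.card X)
  Xsol : Group.IsSolvable X
  Xfix : ∀ x ∈ X, (∀ b ∈ A, b * x * b⁻¹ = x) → x = 1
  Vfix : ∀ v : V, (∀ b ∈ A, b • v = v) → v = 0
  Xf : ∀ x ∈ X, (∀ v : V, x • v = v) → x = 1
  irr : ∀ W : AddSubgroup V, (∀ x ∈ X, ∀ w ∈ W, x • w ∈ W) → (∀ b ∈ A, ∀ w ∈ W, b • w ∈ W) →
    W ≠ ⊥ → W = ⊤

variable {V}

namespace Irr

variable {r p q : ℕ} {A : Subgroup Γ} {a : Γ} {X : Subgroup Γ} (h : Irr V r p q A a X)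
include h

theorem solv {K : Subgroup Γ} (hK : K ≤ X) : Group.IsSolvable K := by
  haveI := h.Xsol
  exact Group.isSolvable_of_isSolvable_injective (Subgroup.inclusion_injective hK)

theorem cop {K : Subgroup Γ} (hK : K ≤ X) : (Nat.card A).Coprime (Nat.card K) :=
  Nat.Coprime.coprime_dvd_right (Subgroup.card_dvd_of_le hK) h.AX

theorem copV {s : ℕ} (hs : s.Prime) (hsr : s ≠ r) : s.Coprime (Nat.card V) := by
  obtain ⟨k, hk⟩ := h.Vr
  rw [hk]
  exact Nat.Coprime.pow_right k ((Nat.coprime_primes hs h.rprime).mpr hsr)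

theorem conjX (g : Γ) {x : Γ} (hx : x ∈ X) : g * x * g⁻¹ ∈ X := h.Xn.conj_mem x hx g

theorem conjX' (g : Γ) {x : Γ} (hx : x ∈ X) : g⁻¹ * x * g ∈ X := by
  simpa using h.Xn.conj_mem x hx g⁻¹

/-- The fixed points of a normal subgroup in `X` are `⊥` or everything. -/
theorem fix_normal {T : Subgroup Γ} (hTn : T.Normal) (hne : fixS V T ≠ ⊥) {x : Γ} (hx : x ∈ T)
    (v : V) : x • v = v := by
  have hinv : ∀ g : Γ, ∀ w ∈ fixS V T, g • w ∈ fixS V T := by
    intro g w hw l hl
    have h1 := hw (g⁻¹ * l * g) (by simpa using hTn.conj_mem l hl g⁻¹)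
    have e : l • g • w = g • ((g⁻¹ * l * g) • w) := by
      rw [← mul_smul, ← mul_smul]
      congr 1
      group
    rw [e, h1]
  have htop := h.irr _ (fun x _ w hw => hinv x w hw) (fun x _ w hw => hinv x w hw) hne
  have hv : v ∈ fixS V T := by rw [htop]; exact AddSubgroup.mem_top v
  exact hv x hx

/-- A normal `r`-subgroup of `X` is trivial. -/
theorem no_r {T : Subgroup Γ} (hTX : T ≤ X) (hTn : T.Normal) (hT : IsPGroup r T) : T = ⊥ := by
  haveI : Fact r.Prime := ⟨h.rprime⟩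
  rw [eq_bot_iff]
  intro x hx
  rw [Subgroup.mem_bot]
  apply h.Xf x (hTX hx)
  intro v
  by_cases hV : Subsingleton V
  · exact Subsingleton.elim _ _
  rw [not_subsingleton_iff_nontrivial] at hV
  refine h.fix_normal hTn ?_ hx v
  obtain ⟨k, hk⟩ := h.Vr
  have hdvd : r ∣ Nat.card V := by
    rw [hk]
    have hk0 : k ≠ 0 := by
      rintro rfl
      have h1 : Nat.card V = 1 := by simpa using hk
      exact (Finite.one_lt_card (α := V)).ne' h1
    exact dvd_pow_self r hk0
  have h0 : (0 : V) ∈ MulAction.fixedPoints T V := fun y => smul_zero _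
  obtain ⟨b, hb, hb0⟩ := hT.exists_fixed_point_of_prime_dvd_card_of_fixed_point V hdvd h0
  intro hbot
  have hbW : b ∈ fixS V T := fun y hy => hb ⟨y, hy⟩
  rw [hbot, AddSubgroup.mem_bot] at hbW
  exact hb0 hbW.symm

/-- A nontrivial normal subgroup of `X` is not perfect. -/
theorem comm_ne_self {Z : Subgroup Γ} (hZX : Z ≤ X) (hZ : Z ≠ ⊥) : ⁅Z, Z⁆ ≠ Z := by
  intro he
  haveI := h.solv hZX
  have hnt : Nontrivial Z := by
    rw [Subgroup.nontrivial_iff_ne_bot]
    exact hZ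
  have hlt := Group.IsSolvable.commutator_lt_top_of_nontrivial Z
  apply hlt.ne
  apply Subgroup.map_injective Z.subtype_injective
  have e1 : (⊤ : Subgroup Z).map Z.subtype = Z := by
    rw [← MonoidHom.range_eq_map, Subgroup.range_subtype]
  show (⁅(⊤ : Subgroup Z), (⊤ : Subgroup Z)⁆).map Z.subtype = _
  rw [Subgroup.map_commutator, e1, he]

/-- Existence of the minimal normal subgroup. -/
theorem exists_sys (hX : X ≠ ⊥) :
    ∃ (u : ℕ) (Z : Subgroup Γ), Sys V p q u A a X Z ∧ Z ≠ ⊥ ∧ u ≠ r := by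
  let F : Set (Subgroup Γ) := {Z | Z ≠ ⊥ ∧ Z ≤ X ∧ Z.Normal}
  have hF : F.Nonempty := ⟨X, hX, le_rfl, h.Xn⟩
  obtain ⟨Z, hZ⟩ := (Set.toFinite F).exists_minimal hF
  obtain ⟨hZ1, hZX, hZn⟩ := hZ.prop
  haveI := hZn
  have hmin : ∀ U : Subgroup Γ, U ≠ ⊥ → U ≤ Z → U.Normal → U = Z :=
    fun U h1 h2 h3 => le_antisymm h2 (hZ.le_of_le ⟨h1, h2.trans hZX, h3⟩ h2)
  have hcomm : ⁅Z, Z⁆ = ⊥ := by
    by_contra hne
    exact h.comm_ne_self hZX hZ1 (hmin _ hne (Subgroup.commutator_le_self _) inferInstance)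
  have hZab : ∀ x ∈ Z, ∀ y ∈ Z, x * y = y * x := by
    intro x hx y hy
    have h1 : ⁅x, y⁆ ∈ ⁅Z, Z⁆ := Subgroup.commutator_mem_commutator hx hy
    rw [hcomm, Subgroup.mem_bot, commutatorElement_eq_one_iff_mul_comm] at h1
    exact h1
  have hcard : Nat.card Z ≠ 1 := fun h1 => hZ1 (Subgroup.eq_bot_of_card_eq Z h1)
  obtain ⟨u, hu, hud⟩ := Nat.exists_prime_and_dvd hcard
  haveI : Fact u.Prime := ⟨hu⟩
  let V₁ : Subgroup Γ :=
    { carrier := {x | x ∈ Z ∧ x ^ u = 1}
      mul_mem' := by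
        rintro a b ⟨h1, h2⟩ ⟨k1, k2⟩
        refine ⟨Z.mul_mem h1 k1, ?_⟩
        have hc : Commute a b := hZab a h1 b k1
        rw [hc.mul_pow, h2, k2, one_mul]
      one_mem' := ⟨Z.one_mem, one_pow u⟩
      inv_mem' := by
        rintro a ⟨h1, h2⟩
        exact ⟨Z.inv_mem h1, by rw [inv_pow, h2, inv_one]⟩ }
  have hV₁ : V₁ = Z := by
    apply hmin
    · obtain ⟨y, hy⟩ := exists_prime_orderOf_dvd_card' u hud
      intro hbot
      have h1 : (y : Γ) ∈ V₁ := by
        refine ⟨y.2, ?_⟩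
        have := pow_orderOf_eq_one y
        rw [hy] at this
        exact congrArg Subtype.val this
      rw [hbot, Subgroup.mem_bot] at h1
      have h2 : y = 1 := Subtype.ext h1
      rw [h2, orderOf_one] at hy
      exact hu.one_lt.ne hy
    · exact fun x hx => hx.1
    · constructor
      rintro x ⟨h1, h2⟩ g
      refine ⟨hZn.conj_mem x h1 g, ?_⟩
      rw [conj_pow, h2, mul_one, mul_inv_cancel]
  have hZu : ∀ z ∈ Z, z ^ u = 1 := by
    intro z hz
    have h1 : z ∈ V₁ := by rw [hV₁]; exact hz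
    exact h1.2
  have hur : u ≠ r := by
    rintro rfl
    apply hZ1
    apply h.no_r hZX hZn
    intro g
    refine ⟨1, ?_⟩
    apply Subtype.ext
    simpa using hZu g g.2
  refine ⟨u, Z, ?_, hZ1, hur⟩
  refine
    { F := h.F
      Xn := h.Xn
      Zn := hZn
      ZX := hZX
      Zab := hZab
      Zu := hZu
      uprime := hu
      uV := h.copV hu hur
      AV := h.AV
      AX := h.AX
      Xsol := h.Xsol
      Xfix := h.Xfix
      Vfix := h.Vfix
      V0 := ?_
      Zf := fun z hz hzv => h.Xf z (hZX hz) hzv }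
  intro v hv
  by_contra hv0
  apply hZ1
  rw [eq_bot_iff]
  intro z hz
  rw [Subgroup.mem_bot]
  apply h.Xf z (hZX hz)
  refine fun w => h.fix_normal hZn ?_ hz w
  intro hbot
  have h1 : v ∈ fixS V Z := hv
  rw [hbot, AddSubgroup.mem_bot] at h1
  exact hv0 h1

/-- The linear action. -/
theorem exists_linear : ∃ (_ : Module (ZMod r) V) (ρ : Γ →* Module.End (ZMod r) V), ∀ g v, ρ g v = g • v := by
  haveI : Fact r.Prime := ⟨h.rprime⟩
  letI inst : Module (ZMod r) V := AddCommGroup.zmodModule h.Vexp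
  obtain ⟨ρ, hρ⟩ := Cfsg.Agent.Lib.HallHigman.Section.exists_linear_of_additive (p := r) (G := Γ) (V := V)
    (fun g => DistribSMul.toAddMonoidHom V g) (by
      ext v
      simp) (by
      intro g k
      ext v
      simp [mul_smul])
  exact ⟨inst, ρ, fun g v => by simpa using hρ g v⟩

/-- If `a` has no fixed points on `V`, then `a` centralizes all normal `s`-subgroups for `s ≠ r`. -/
theorem central_of_free (hfree : ∀ v : V, a • v = v → v = 0) {K : Subgroup Γ} (hKX : K ≤ X)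
    (haK : a ∈ Subgroup.normalizer (K : Set Γ)) {s : ℕ} (hs : s.Prime) (hsr : s ≠ r)
    (hK : IsPGroup s K) {g : Γ} (hg : g ∈ K) : a * g * a⁻¹ = g := by
  haveI : Fact r.Prime := ⟨h.rprime⟩
  haveI hpF : Fact p.Prime := ⟨h.F.hp⟩
  haveI hsF : Fact s.Prime := ⟨hs⟩
  have hF := h.F
  obtain ⟨inst, ρ, hρ⟩ := h.exists_linear
  haveI : Module.Finite (ZMod r) V := Module.Finite.of_finite
  have hdvdA : p ∣ Nat.card A := by rw [hF.card]; exact dvd_mul_right p q
  have hpX : p.Coprime (Nat.card X) := Nat.Coprime.coprime_dvd_left hdvdA h.AX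
  have hpV : p.Coprime (Nat.card V) := Nat.Coprime.coprime_dvd_left hdvdA h.AV
  have hpr : p ≠ r :=
    (Nat.coprime_primes hF.hp h.rprime).mp (Nat.Coprime.coprime_dvd_left hdvdA h.Ar)
  have hprim : ∀ d : ℕ, d.Prime → d ≠ r → (d : ZMod r) ≠ 0 := by
    intro d hd hdr h0
    rw [ZMod.natCast_eq_zero_iff] at h0
    exact hdr ((Nat.prime_dvd_prime_iff_eq h.rprime hd).mp h0).symm
  have hcard : ∀ d : ℕ, d.Prime → d ∣ Nat.card K → d = s := by
    intro d hd hdK
    obtain ⟨k, hk⟩ := IsPGroup.iff_card.mp hK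
    rw [hk] at hdK
    exact (Nat.prime_dvd_prime_iff_eq hd hs).mp (hd.dvd_of_dvd_pow hdK)
  have key := Cfsg.Agent.Lib.HallHigman.FixedPoints.commute_of_free (F := ZMod r) (W := V) (H := Γ)
    (r := p) (hprim p hF.hp hpr) ρ a hF.orderOf_a K haK
    (Nat.Coprime.coprime_dvd_left (Subgroup.card_dvd_of_le hKX) hpX.symm)
    (fun d hd hdK => hprim d hd (by rw [hcard d hd hdK]; exact hsr))
    (fun v hv => hfree v (by rw [← hρ]; exact hv))
    (by
      intro d m hd hdK hm hp2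
      have hd2 : d = 2 := Cfsg.Agent.Lib.HallHigman.FixedPoints.eq_two_of_eq_pow_add_one hd hF.hp hm hp2
      have hq : q ∣ 2 ^ m := by
        have := hF.q_dvd
        rw [hp2, hd2] at this
        simpa using this
      have hq2 : q = 2 := (Nat.prime_dvd_prime_iff_eq hF.hq Nat.prime_two).mp (hF.hq.dvd_of_dvd_pow hq)
      have h2A : 2 ∣ Nat.card A := by rw [hF.card, hq2]; exact dvd_mul_left 2 p
      have h2X : 2 ∣ Nat.card X := by
        rw [← hd2]
        exact hdK.trans (Subgroup.card_dvd_of_le hKX)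
      exact Nat.not_coprime_of_dvd_of_dvd (by norm_num) h2A h2X h.AX)
    g hg
  have h1 : a * g * a⁻¹ * g⁻¹ = 1 := by
    apply h.Xf _ (X.mul_mem (h.conjX a (hKX hg)) (X.inv_mem (hKX hg)))
    intro v
    rw [mul_smul, ← hρ (a * g * a⁻¹), key, hρ, smul_inv_smul]
  exact mul_inv_eq_one.mp h1

omit h [Finite V] [DistribMulAction Γ V] [AddCommGroup V] in
/-- A characteristic subgroup of a normal subgroup is normal. -/
theorem map_normal_of_char (hX : X.Normal) (C : Subgroup X) [C.Characteristic] : (C.map X.subtype).Normal := by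
  haveI := hX
  constructor
  rintro _ ⟨x, hx, rfl⟩ g
  exact ⟨MulAut.conjNormal g x, char_apply_mem C _ hx, MulAut.conjNormal_apply g x⟩

/-- `O_r(X) = 1`. -/
theorem pCore_r_eq_bot : pCore r X = ⊥ := by
  haveI : Fact r.Prime := ⟨h.rprime⟩
  have h1 := h.no_r (T := (pCore r X).map X.subtype) (Subgroup.map_subtype_le _)
    (map_normal_of_char h.Xn _) (pCore_isPGroup.map X.subtype)
  exact (Subgroup.map_eq_bot_iff_of_injective _ X.subtype_injective).mp h1

/-- A fixed point of `a` on `X`-level: if `a` has no fixed points on `V`, `a` centralizes `X`. -/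
theorem centralizes_X (hfree : ∀ v : V, a • v = v → v = 0) {x : Γ} (hx : x ∈ X) : a * x = x * a := by
  haveI := h.Xn
  haveI := h.Xsol
  let φ : MulAut X := MulAut.conjNormal a
  have hφ : ∀ y : X, ((φ y : X) : Γ) = a * y * a⁻¹ := fun y => MulAut.conjNormal_apply a y
  have hφp : φ ^ p = 1 := by
    rw [← map_pow, h.F.ap, map_one]
  have hpX : p.Coprime (Nat.card X) :=
    Nat.Coprime.coprime_dvd_left (by rw [h.F.card]; exact dvd_mul_right p q) h.AX
  have hcore : ∀ s : Nat.Primes, ∀ y ∈ pCore (s : ℕ) X, φ y = y := by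
    intro s y hy
    haveI : Fact (s : ℕ).Prime := ⟨s.2⟩
    by_cases hsr : (s : ℕ) = r
    · rw [hsr, h.pCore_r_eq_bot] at hy
      rw [Subgroup.mem_bot.mp hy, map_one]
    · apply Subtype.ext
      rw [hφ]
      exact h.central_of_free hfree (K := (pCore (s : ℕ) X).map X.subtype) (Subgroup.map_subtype_le _)
        (normalizer_of_normal (map_normal_of_char h.Xn _) a) s.2 hsr (pCore_isPGroup.map X.subtype)
        ⟨y, hy, rfl⟩
  have hfit : ∀ y ∈ fittingSubgroup X, φ y = y := by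
    have hle : fittingSubgroup X ≤ MonoidHom.eqLocus (φ : X →* X) (MonoidHom.id X) := by
      rw [fittingSubgroup_eq_iSup_pCore]
      exact iSup_le fun s y hy => hcore s y hy
    exact fun y hy => hle hy
  have hfix := fix_of_fix_fitting φ h.F.hp hφp hpX hfit ⟨x, hx⟩
  have h1 := congrArg Subtype.val hfix
  rw [hφ] at h1
  calc a * x = (a * x * a⁻¹) * a := by group
    _ = x * a := by rw [show a * x * a⁻¹ = x from h1]

/-- An element of `X` commuting with `c ≠ 1` and `d ∉ ⟨c⟩` in `A` is trivial. -/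
theorem eq_one_of_comm {c d y : Γ} (hc : c ∈ A) (hd : d ∈ A) (hc1 : c ≠ 1)
    (hdc : d ∉ Subgroup.zpowers c) (hy : y ∈ X) (h1 : c * y = y * c) (h2 : d * y = y * d) : y = 1 := by
  apply h.Xfix y hy
  have hle := h.F.gen (Subgroup.centralizer ({y} : Set Γ)) hc hd hc1 hdc
    (Subgroup.mem_centralizer_singleton_iff.mpr h1)
    (Subgroup.mem_centralizer_singleton_iff.mpr h2)
  intro a ha
  have h3 := Subgroup.mem_centralizer_singleton_iff.mp (hle ha)
  rw [h3]; group

end Irr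

end Cfsg.Agent.Lib.FrobAct.Irr
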