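import Cfsg.Agent.Lib.FrobAct.LHyp
import Cfsg.Agent.Lib.Coprime.FrobCount

/-!
# A Frobenius group acting on a `u`-group and a module: the count, and the theorem
-/

set_option autoImplicit false

namespace Cfsg.Agent.Lib.FrobAct.LMin

open Cfsg.Agent.Lib.Ward.Norm Cfsg.Agent.Lib.Ward.Setup Cfsg.Agent.Lib.Ward.Elem
open Cfsg.Agent.Lib.FrobAct.Basic Cfsg.Agent.Lib.FrobAct.Weights Cfsg.Agent.Lib.Coprime.Action
open Cfsg.Agent.Lib.Coprime.FrobCount
open scoped commutatorElement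

variable {H : Type*} [Group H] [Finite H]
variable {V : Type*} [AddCommGroup V] [Finite V] [DistribMulAction H V]

namespace MinData

variable {r u q : ℕ} {T P : Subgroup H} {c : H} (h : MinData V r u q T P c)
include h

set_option maxHeartbeats 1000000 in
/-- **The count.** -/
theorem count : ∃ k : ℕ, 1 ≤ k ∧
    Nat.card (EE T c) = Nat.card ↥(EE T c ⊓ Zt T P) * 2 ^ ((q - 1) * k) ∧
    (k = 1 → ∃ d ∈ CC T c, d ∉ Zt T P ∧ ∀ d' ∈ CC T c, d' ∈ Zt T P ∨ d' * d⁻¹ ∈ Zt T P) := by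
  classical
  have hu2 := h.u_eq
  subst hu2
  haveI := h.fact_q
  let G₂ : Subgroup H := Subgroup.normalizer (T : Set H) ⊓ Subgroup.normalizer ((Zt T P : Subgroup H) : Set H)
  have hTG : T ≤ G₂ := fun t ht => ⟨Subgroup.le_normalizer ht, h.T_Zt ht⟩
  have hcG : c ∈ G₂ := ⟨h.cT, h.cZ⟩
  have hPG : P ≤ G₂ := fun g hg => ⟨h.PT hg, h.PZ hg⟩
  let N' : Subgroup G₂ := (Zt T P).subgroupOf G₂
  let T' : Subgroup G₂ := T.subgroupOf G₂
  haveI hN' : N'.Normal := by
    constructor
    rintro ⟨n, hn⟩ hn' ⟨g, hg⟩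
    rw [Subgroup.mem_subgroupOf] at hn' ⊢
    exact nconj hg.2 hn'
  haveI hT' : T'.Normal := by
    constructor
    rintro ⟨n, hn⟩ hn' ⟨g, hg⟩
    rw [Subgroup.mem_subgroupOf] at hn' ⊢
    exact nconj hg.1 hn'
  have hNT : N' ≤ T' := fun x hx => Subgroup.mem_subgroupOf.mpr (h.Zt_le (Subgroup.mem_subgroupOf.mp hx))
  have hcomm : ∀ a ∈ T', ∀ b ∈ T', a * b * a⁻¹ * b⁻¹ ∈ N' := by
    intro a ha b hb
    rw [Subgroup.mem_subgroupOf]
    exact h.comm_le (Subgroup.commutator_mem_commutator (Subgroup.mem_subgroupOf.mp ha)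
      (Subgroup.mem_subgroupOf.mp hb))
  have hexp : ∀ a ∈ T', a ^ 2 ∈ N' := by
    intro a ha
    rw [Subgroup.mem_subgroupOf]
    exact h.pow_mem (Subgroup.mem_subgroupOf.mp ha)
  obtain ⟨W, instA, instM, instF, ρ, π, hadd, hsurj, hzero, hconj⟩ :=
    Cfsg.Agent.Lib.HallHigman.Section.exists_section_module (p := 2) N' T' hNT hcomm hexp
  let pp : H → W := fun t => if ht : t ∈ T then π ⟨⟨t, hTG ht⟩, Subgroup.mem_subgroupOf.mpr ht⟩ else 0
  have hpp : ∀ (t : H) (ht : t ∈ T), pp t = π ⟨⟨t, hTG ht⟩, Subgroup.mem_subgroupOf.mpr ht⟩ :=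
    fun t ht => dif_pos ht
  have hp_mul : ∀ {a b : H}, a ∈ T → b ∈ T → pp (a * b) = pp a + pp b := by
    intro a b ha hb
    rw [hpp a ha, hpp b hb, hpp _ (T.mul_mem ha hb)]
    exact hadd ⟨⟨a, hTG ha⟩, Subgroup.mem_subgroupOf.mpr ha⟩ ⟨⟨b, hTG hb⟩, Subgroup.mem_subgroupOf.mpr hb⟩
  have hp_surj : ∀ v : W, ∃ t ∈ T, pp t = v := by
    intro v
    obtain ⟨⟨⟨t, ht1⟩, ht2⟩, rfl⟩ := hsurj v
    have ht : t ∈ T := Subgroup.mem_subgroupOf.mp ht2
    exact ⟨t, ht, hpp t ht⟩
  have hp_zero : ∀ {t : H}, t ∈ T → (pp t = 0 ↔ t ∈ Zt T P) := by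
    intro t ht
    rw [hpp t ht, hzero]
    exact Subgroup.mem_subgroupOf
  have hp_conj : ∀ {g : H} (hg : g ∈ G₂) {t : H}, t ∈ T → ρ ⟨g, hg⟩ (pp t) = pp (g * t * g⁻¹) := by
    intro g hg t ht
    have ht' : g * t * g⁻¹ ∈ T := nconj hg.1 ht
    rw [hpp t ht, hpp _ ht']
    exact hconj _ _ _ rfl
  have hp_sub : ∀ {a b : H}, a ∈ T → b ∈ T → (pp a = pp b ↔ a * b⁻¹ ∈ Zt T P) := by
    intro a b ha hb
    have h1 := hp_mul (T.mul_mem ha (T.inv_mem hb)) hb
    rw [show a * b⁻¹ * b = a by group] at h1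
    rw [← hp_zero (T.mul_mem ha (T.inv_mem hb)), h1]
    exact add_eq_right
  let U : Subgroup G₂ := P.subgroupOf G₂
  let E' : Subgroup G₂ := (Subgroup.zpowers c).subgroupOf G₂
  have hzG : Subgroup.zpowers c ≤ G₂ := (Subgroup.zpowers_le).mpr hcG
  have hcardU : Nat.card U = Nat.card P := Nat.card_congr (Subgroup.subgroupOfEquivOfLe hPG).toEquiv
  have hcardE : Nat.card E' = q := by
    rw [Nat.card_congr (Subgroup.subgroupOfEquivOfLe hzG).toEquiv, Nat.card_zpowers, h.ord]
  have hEU : E' ≤ Subgroup.normalizer (U : Set G₂) := by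
    intro e he
    apply IsF.mem_normalizer_of_conj
    intro g hg
    have he' : (e : H) ∈ Subgroup.zpowers c := Subgroup.mem_subgroupOf.mp he
    have h1 : Subgroup.zpowers c ≤ Subgroup.normalizer (P : Set H) := (Subgroup.zpowers_le).mpr h.cP
    exact Subgroup.mem_subgroupOf.mpr (nconj (h1 he') (Subgroup.mem_subgroupOf.mp hg))
  have hUnil : Group.IsNilpotent U := by
    haveI := h.Pnil
    exact nilpotent_of_surjective (Subgroup.subgroupOfEquivOfLe hPG).symm.toMonoidHom
      (Subgroup.subgroupOfEquivOfLe hPG).symm.surjective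
  have hUF : ((Nat.card U : ℕ) : ZMod 2) ≠ 0 := by
    rw [hcardU]
    intro h0
    rw [ZMod.natCast_eq_zero_iff] at h0
    have h1 := Nat.Coprime.eq_one_of_dvd h.Pu.symm h0
    omega
  have hEF : ((Nat.card E' : ℕ) : ZMod 2) ≠ 0 := by
    rw [hcardE]
    intro h0
    rw [ZMod.natCast_eq_zero_iff] at h0
    exact h.uq ((Nat.prime_dvd_prime_iff_eq Nat.prime_two h.qprime).mp h0)
  have hfpf : ∀ e ∈ E', e ≠ 1 → ∀ g ∈ U, e * g * e⁻¹ = g → g = 1 := by
    intro e he he1 g hg heg
    have he' : (e : H) ∈ Subgroup.zpowers c := Subgroup.mem_subgroupOf.mp he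
    have he1' : (e : H) ≠ 1 := fun h1 => he1 (Subtype.ext h1)
    have h1 : c ∈ Subgroup.zpowers (e : H) := mem_zpowers_symm h.qprime h.c_pow he' he1'
    have h2 : (e : H) * g * (e : H)⁻¹ = g := congrArg Subtype.val heg
    have h3 : (e : H) * g = g * e := by
      calc (e : H) * g = ((e : H) * g * (e : H)⁻¹) * e := by group
        _ = g * e := by rw [h2]
    have h4 : c * (g : H) = g * c := cen_eq_of_mem h1 h3
    have h5 := h.cfree g (Subgroup.mem_subgroupOf.mp hg) (by rw [h4]; group)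
    exact Subtype.ext h5
  have hform := finrank_formula ρ U E' hEU hUnil hUF hEF hfpf
  have hU0 : fixOf ρ U = ⊥ := by
    rw [eq_bot_iff]
    intro v hv
    obtain ⟨t, ht, rfl⟩ := hp_surj v
    rw [Submodule.mem_bot, hp_zero ht]
    apply h.fixP ht
    intro g hg
    have hgt := nconj (h.PT hg) ht
    have h1 := hv ⟨g, hPG hg⟩ (Subgroup.mem_subgroupOf.mpr hg)
    rw [hp_conj (hPG hg) ht] at h1
    exact (hp_sub hgt ht).mp h1
  rw [hU0, bot_inf_eq, finrank_bot, hcardE, mul_zero, add_zero, zero_add] at hform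
  set k := Module.finrank (ZMod 2) ↥(fixOf ρ E') with hk
  let F : Submodule (ZMod 2) W := fixOf ρ E'
  have hcardW : Nat.card W = 2 ^ (q * k) := by
    rw [Module.natCard_eq_pow_finrank (K := ZMod 2), Nat.card_zmod, hform]
  have hcardF : Nat.card F = 2 ^ k := by
    rw [Module.natCard_eq_pow_finrank (K := ZMod 2), Nat.card_zmod]
  have hk1 : 1 ≤ k := by
    by_contra hk0
    have hk0' : k = 0 := by omega
    rw [hk0', mul_zero, pow_zero] at hcardW
    have hsub : Subsingleton W := (Nat.card_eq_one_iff_unique.mp hcardW).1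
    apply h.Zt_ne
    apply le_antisymm h.Zt_le
    intro t ht
    exact (hp_zero ht).mp (Subsingleton.elim _ _)
  have hmemE : ∀ v : W, ρ ⟨c, hcG⟩ v = v → v ∈ F := by
    intro v hv a ha
    let S : Subgroup G₂ :=
      { carrier := {g | ρ g v = v}
        mul_mem' := by
          intro a b ha hb
          show ρ (a * b) v = v
          rw [map_mul, Module.End.mul_apply, hb, ha]
        one_mem' := by
          show ρ 1 v = v
          rw [map_one]
          rfl
        inv_mem' := by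
          intro a ha
          show ρ a⁻¹ v = v
          have h1 : ρ a⁻¹ (ρ a v) = v := by
            rw [← Module.End.mul_apply, ← map_mul, inv_mul_cancel, map_one]
            rfl
          rwa [ha] at h1 }
    have hcS : (⟨c, hcG⟩ : G₂) ∈ S := hv
    obtain ⟨j, hj⟩ := Subgroup.mem_zpowers_iff.mp (Subgroup.mem_subgroupOf.mp ha)
    have e1 : a = (⟨c, hcG⟩ : G₂) ^ j := Subtype.ext hj.symm
    rw [e1]
    exact S.zpow_mem hcS j
  have hF_c : ∀ v ∈ F, ρ ⟨c, hcG⟩ v = v := fun v hv =>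
    hv ⟨c, hcG⟩ (Subgroup.mem_subgroupOf.mpr (Subgroup.mem_zpowers c))
  have hCF : ∀ {d : H}, d ∈ CC T c → pp d ∈ F := by
    intro d hd
    apply hmemE
    have h1 := mem_CC.mp hd
    have h2 : c * d * c⁻¹ = d := by rw [h1.2]; group
    rw [hp_conj hcG h1.1, h2]
  have hET : EE T c ≤ T := h.E_le
  haveI : Finite W := Module.finite_of_finite (ZMod 2)
  -- the counting hom
  let Θ : ↥(EE T c) × Multiplicative F →* Multiplicative W :=
    { toFun := fun x => Multiplicative.ofAdd (pp x.1 + ((Multiplicative.toAdd x.2 : F) : W))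
      map_one' := by
        show Multiplicative.ofAdd (pp 1 + (0 : W)) = 1
        rw [add_zero, (hp_zero T.one_mem).mpr (Subgroup.one_mem _)]
        rfl
      map_mul' := by
        rintro ⟨e₁, v₁⟩ ⟨e₂, v₂⟩
        show Multiplicative.ofAdd (pp ((e₁ : H) * e₂) +
            ((Multiplicative.toAdd v₁ : F) + (Multiplicative.toAdd v₂ : F) : F).1) =
          Multiplicative.ofAdd ((pp e₁ + ((Multiplicative.toAdd v₁ : F) : W)) +
            (pp e₂ + ((Multiplicative.toAdd v₂ : F) : W)))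
        rw [hp_mul (hET e₁.2) (hET e₂.2), Submodule.coe_add]
        congr 1
        abel }
  have hΘ : ∀ x, Θ x = Multiplicative.ofAdd (pp x.1 + ((Multiplicative.toAdd x.2 : F) : W)) :=
    fun x => rfl
  have hΘs : Function.Surjective Θ := by
    intro w
    obtain ⟨t, ht, htw⟩ := hp_surj (Multiplicative.toAdd w)
    obtain ⟨e, he, d, hd, rfl⟩ := h.split ht
    refine ⟨(⟨e, he⟩, Multiplicative.ofAdd ⟨pp d, hCF hd⟩), ?_⟩
    rw [hΘ]
    show Multiplicative.ofAdd (pp e + pp d) = w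
    rw [← hp_mul (hET he) (h.CC_le hd), htw]
    rfl
  have hΘk : ∀ x : ↥(EE T c) × Multiplicative F, Θ x = 1 → (x.1 : H) ∈ Zt T P ∧ x.2 = 1 := by
    rintro ⟨e, v⟩ hx
    have h1 : pp e + ((Multiplicative.toAdd v : F) : W) = 0 := hx
    have h2 : pp e ∈ F := by
      rw [eq_neg_of_add_eq_zero_left h1]
      exact F.neg_mem (Multiplicative.toAdd v).2
    have h3 := hF_c _ h2
    rw [hp_conj hcG (hET e.2)] at h3
    have h4 : (e : H) ∈ Zt T P := h.E_fix e.2 ((hp_sub (nconj h.cT (hET e.2)) (hET e.2)).mp h3)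
    refine ⟨h4, ?_⟩
    rw [(hp_zero (hET e.2)).mpr h4, zero_add] at h1
    show v = 1
    apply Multiplicative.toAdd.injective
    exact Subtype.ext h1
  have hcardK : Nat.card Θ.ker = Nat.card ↥(EE T c ⊓ Zt T P) := by
    apply Nat.card_congr
    exact
      { toFun := fun x => ⟨x.1.1, x.1.1.2, (hΘk x.1 x.2).1⟩
        invFun := fun e => ⟨(⟨e.1, e.2.1⟩, 1), by
          show Θ _ = 1
          rw [hΘ]
          show Multiplicative.ofAdd (pp e.1 + (0 : W)) = 1
          rw [add_zero, (hp_zero (hET e.2.1)).mpr e.2.2]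
          rfl⟩
        left_inv := by
          rintro ⟨⟨e, v⟩, hx⟩
          have := (hΘk _ hx).2
          apply Subtype.ext
          apply Prod.ext
          · rfl
          · exact this.symm
        right_inv := by
          rintro ⟨e, he⟩
          rfl }
  have hmain := Cfsg.Agent.Lib.Core.Basic.card_eq_card_ker_mul_of_surjective Θ hΘs
  rw [Nat.card_prod, hcardK, show Nat.card (Multiplicative F) = Nat.card F from
    Nat.card_congr Multiplicative.toAdd.symm, hcardF,
    show Nat.card (Multiplicative W) = Nat.card W from Nat.card_congr Multiplicative.toAdd.symm, hcardW] at hmain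
  have hq1 : q * k = (q - 1) * k + k := by
    have := h.qprime.one_lt
    obtain ⟨q', rfl⟩ : ∃ q', q = q' + 1 := ⟨q - 1, by omega⟩
    simp only [Nat.add_sub_cancel]
    ring
  refine ⟨k, hk1, ?_, ?_⟩
  · rw [hq1, pow_add, ← mul_assoc] at hmain
    exact Nat.eq_of_mul_eq_mul_right (by positivity) hmain
  · intro hk'
    have hF2 : Nat.card F = 2 := by rw [hcardF, hk', pow_one]
    obtain ⟨w, hw0, huniq⟩ := (Nat.card_eq_two_iff' (0 : F)).mp hF2
    obtain ⟨t, ht, htw⟩ := hp_surj (w : W)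
    have hcw := hF_c _ w.2
    have hct : c * t * c⁻¹ * t⁻¹ ∈ Zt T P := by
      have h1 := hp_conj hcG ht
      rw [htw, hcw, ← htw] at h1
      exact (hp_sub (nconj h.cT ht) ht).mp h1.symm
    obtain ⟨d, hd, hd2⟩ := h.fix_lift ht hct
    have hdT := h.CC_le hd
    have hpd : pp d = w := by
      rw [← htw]
      apply (hp_sub hdT ht).mpr
      have h1 := nconj (h.T_Zt ht) hd2
      have e1 : t * (t⁻¹ * d) * t⁻¹ = d * t⁻¹ := by group
      rwa [e1] at h1
    refine ⟨d, hd, ?_, ?_⟩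
    · intro hdZ
      apply hw0
      apply Subtype.ext
      rw [← hpd]
      exact (hp_zero hdT).mpr hdZ
    · intro d' hd'
      by_cases h0 : pp d' = 0
      · left
        exact (hp_zero (h.CC_le hd')).mp h0
      · right
        have h1 := huniq ⟨pp d', hCF hd'⟩ (fun h2 => h0 (congrArg Subtype.val h2))
        have h2 : pp d' = w := congrArg Subtype.val h1
        apply (hp_sub (h.CC_le hd') hdT).mp
        rw [h2, hpd]

/-- The minimal situation does not occur. -/
theorem false_of : False := by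
  have hu2 := h.u_eq
  obtain ⟨y, hy, hy1⟩ := h.exists_ne
  obtain ⟨L, hLle, hyL, ⟨v₀, hv1, hv2⟩, hgen⟩ := h.exists_hyp hy hy1
  have hH : HypData r u q T P c L y v₀ := ⟨h, hLle, hy, hyL, hv1, hv2, hgen⟩
  obtain ⟨n, hq, hE1, hE2⟩ := hH.extra
  obtain ⟨k, hk1, hE3, hk⟩ := h.count
  have hpos : 0 < Nat.card ↥(EE T c ⊓ L) := Nat.card_pos
  have h1 : 2 ^ (2 * n + 1) = 2 ^ ((q - 1) * k + 1) := by
    rw [hE1, hE2, mul_assoc] at hE3
    have h2 := Nat.eq_of_mul_eq_mul_left hpos hE3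
    rw [h2, pow_succ, mul_comm]
  have h2 : 2 * n + 1 = (q - 1) * k + 1 := Nat.pow_right_injective (le_refl 2) h1
  have hq1 : q - 1 = 2 ^ n := by rw [hq, Nat.add_sub_cancel]
  rw [hq1] at h2
  have hn : n < 2 ^ n := Nat.lt_two_pow_self
  have hk1' : k = 1 := by
    by_contra hne
    have hk2 : 2 ≤ k := by omega
    have : 2 ^ n * 2 ≤ 2 ^ n * k := Nat.mul_le_mul_left _ hk2
    omega
  obtain ⟨d, hd, hdZ, hall⟩ := hk hk1'
  apply hdZ
  apply hH.rad_le (h.CC_le hd)
  intro t ht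
  obtain ⟨e, he, d', hd', rfl⟩ := h.split ht
  have h3 : d * e = e * d := (h.comm_E_C he hd).symm
  have h4 : d * d' = d' * d := by
    rcases hall d' hd' with h5 | h5
    · exact (h.central h5 (h.CC_le hd))
    · have h6 := h.central h5 (h.CC_le hd)
      have e1 : d' = d' * d⁻¹ * d := by group
      rw [e1, ← mul_assoc, h6]
  have h5 : d * (e * d') * d⁻¹ * (e * d')⁻¹ = 1 := by
    calc d * (e * d') * d⁻¹ * (e * d')⁻¹ = (d * e) * d' * d⁻¹ * (e * d')⁻¹ := by group
      _ = (e * d) * d' * d⁻¹ * (e * d')⁻¹ := by rw [h3]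
      _ = e * (d * d') * d⁻¹ * (e * d')⁻¹ := by group
      _ = e * (d' * d) * d⁻¹ * (e * d')⁻¹ := by rw [h4]
      _ = 1 := by group
  rw [h5]
  exact L.one_mem

end MinData

/-- **Theorem L.** Let `⟨c⟩` of prime order `q` act fixed-point-freely on a nilpotent group `P`
of order prime to `u`, `q`, and let `P⟨c⟩` act on a `u`-group `R` acting faithfully on an
elementary abelian `r`-group `V` on which `c` is fixed-point-free. Then `P` centralizes `R`. -/
theorem centralizes_of_frob {r u q : ℕ} (R P : Subgroup H) (c : H)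
    (rprime : r.Prime) (uprime : u.Prime) (qprime : q.Prime) (ur : u ≠ r) (qr : q ≠ r) (uq : u ≠ q)
    (Vexp : ∀ v : V, r • v = 0) (Vcard : ∃ k, Nat.card V = r ^ k) (Rp : IsPGroup u R)
    (ord : orderOf c = q) (cR : c ∈ Subgroup.normalizer (R : Set H))
    (cP : c ∈ Subgroup.normalizer (P : Set H)) (PR : P ≤ Subgroup.normalizer (R : Set H))
    (Pu : (Nat.card P).Coprime u) (Pq : (Nat.card P).Coprime q) (Pnil : Group.IsNilpotent P)
    (cfree : ∀ g ∈ P, c * g * c⁻¹ = g → g = 1) (Rf : ∀ g ∈ R, (∀ v : V, g • v = v) → g = 1)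
    (cV : ∀ v : V, c • v = v → v = 0) : R ≤ Subgroup.centralizer (P : Set H) := by
  by_contra hcon
  let S : Set (Subgroup H) := {T | T ≤ R ∧ c ∈ Subgroup.normalizer (T : Set H) ∧
    P ≤ Subgroup.normalizer (T : Set H) ∧ ¬ T ≤ Subgroup.centralizer (P : Set H)}
  have hS : S.Finite := Set.toFinite S
  have hne : S.Nonempty := ⟨R, le_rfl, cR, PR, hcon⟩
  obtain ⟨T, hT⟩ := hS.exists_minimal hne
  obtain ⟨hTR, hcT, hPT, hnc⟩ := hT.prop
  have hM : MinData V r u q T P c :=
    { rprime := rprime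
      uprime := uprime
      qprime := qprime
      ur := ur
      qr := qr
      uq := uq
      Vexp := Vexp
      Vcard := Vcard
      Tp := Rp.to_le hTR
      ord := ord
      cT := hcT
      cP := cP
      PT := hPT
      Pu := Pu
      Pq := Pq
      Pnil := Pnil
      cfree := cfree
      Tf := fun g hg => Rf g (hTR hg)
      cV := cV
      nc := hnc
      min := fun T' hT' h1 h2 h3 => le_antisymm hT' (hT.le_of_le ⟨hT'.trans hTR, h1, h2, h3⟩ hT') }
  exact hM.false_of

end Cfsg.Agent.Lib.FrobAct.LMin
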