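import Cfsg.Agent.Lib.FrobAct.LMin
import Cfsg.Agent.Lib.HallHigman.Extraspecial
import Cfsg.Agent.Lib.Core.Basic

/-!
# A Frobenius group acting on a `u`-group and a module: the hyperplane
-/

set_option autoImplicit false

namespace Cfsg.Agent.Lib.FrobAct.LMin

open Cfsg.Agent.Lib.Ward.Norm Cfsg.Agent.Lib.Ward.Setup Cfsg.Agent.Lib.Ward.Elem
open Cfsg.Agent.Lib.FrobAct.Basic Cfsg.Agent.Lib.FrobAct.Weights Cfsg.Agent.Lib.Coprime.Action
open scoped commutatorElement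

variable {H : Type*} [Group H] [Finite H]
variable {V : Type*} [AddCommGroup V] [Finite V] [DistribMulAction H V]

/-- The commutator subgroup with `c`. -/
def EE (T : Subgroup H) (c : H) : Subgroup H := ⁅T, Subgroup.zpowers c⁆

/-- The fixed points of `c` in `T`. -/
def CC (T : Subgroup H) (c : H) : Subgroup H := T ⊓ Subgroup.centralizer (Subgroup.zpowers c : Set H)

omit [Finite H] in
theorem mem_CC {T : Subgroup H} {c d : H} : d ∈ CC T c ↔ d ∈ T ∧ c * d = d * c := by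
  unfold CC
  rw [Subgroup.mem_inf, Subgroup.mem_centralizer_iff]
  constructor
  · rintro ⟨h1, h2⟩
    exact ⟨h1, h2 c (Subgroup.mem_zpowers c)⟩
  · rintro ⟨h1, h2⟩
    exact ⟨h1, fun g hg => cen_eq_of_mem hg h2⟩

namespace MinData

variable {r u q : ℕ} {T P : Subgroup H} {c : H} (h : MinData V r u q T P c)
include h

theorem c_pow : c ^ q = 1 := by
  rw [← h.ord]
  exact pow_orderOf_eq_one c

theorem zp_Z {a z : H} (ha : a ∈ Subgroup.zpowers c) (hz : z ∈ Zt T P) : a * z = z * a :=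
  cen_eq_of_mem ha (h.c_Zt hz)

theorem cop_c : (Nat.card (Subgroup.zpowers c)).Coprime (Nat.card T) := by
  haveI := h.fact_u
  obtain ⟨k, hk⟩ := IsPGroup.iff_card.mp h.Tp
  rw [hk, Nat.card_zpowers, h.ord]
  exact Nat.Coprime.pow_right k ((Nat.coprime_primes h.qprime h.uprime).mpr h.uq.symm)

theorem zp_T : Subgroup.zpowers c ≤ Subgroup.normalizer (T : Set H) := (Subgroup.zpowers_le).mpr h.cT

theorem E_le : EE T c ≤ T := commutator_le_of_le_normalizer h.zp_T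

theorem T_E : T ≤ Subgroup.normalizer ((EE T c : Subgroup H) : Set H) :=
  le_normalizer_commutator_left T (Subgroup.zpowers c)

theorem c_E : c ∈ Subgroup.normalizer ((EE T c : Subgroup H) : Set H) :=
  le_normalizer_commutator_right T (Subgroup.zpowers c) (Subgroup.mem_zpowers c)

theorem CC_le : CC T c ≤ T := inf_le_left

/-- The splitting. -/
theorem split {t : H} (ht : t ∈ T) : ∃ e ∈ EE T c, ∃ d ∈ CC T c, t = e * d := by
  have h1 := commutator_sup_fixed h.zp_T h.cop_c (Or.inr h.solvT)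
  have h2 : t ∈ EE T c ⊔ CC T c := by
    show t ∈ ⁅T, Subgroup.zpowers c⁆ ⊔ (T ⊓ Subgroup.centralizer (Subgroup.zpowers c : Set H))
    rw [h1]
    exact ht
  exact exists_mul_of_mem_sup (h.CC_le.trans h.T_E) h2

/-- `E` commutes with `C`. -/
theorem comm_E_C {e d : H} (he : e ∈ EE T c) (hd : d ∈ CC T c) : e * d = d * e := by
  obtain ⟨hd1, hd2⟩ := mem_CC.mp hd
  have hle : EE T c ≤ Subgroup.centralizer ({d} : Set H) := by
    unfold EE
    rw [Subgroup.commutator_le]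
    intro t ht b hb
    rw [Subgroup.mem_centralizer_singleton_iff, commutatorElement_def]
    have hbd : b * d = d * b := cen_eq_of_mem hb hd2
    set z₁ := t * d * t⁻¹ * d⁻¹ with hz₁
    have hz₁Z : z₁ ∈ Zt T P := h.comm_le (Subgroup.commutator_mem_commutator ht hd1)
    have hti : t⁻¹ ∈ T := T.inv_mem ht
    set z₃ := t⁻¹ * d * t⁻¹⁻¹ * d⁻¹ with hz₃
    have hz₃Z : z₃ ∈ Zt T P := h.comm_le (Subgroup.commutator_mem_commutator hti hd1)
    have e1 : t * d * t⁻¹ = z₁ * d := by rw [hz₁]; group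
    have e3 : t⁻¹ * d * t = z₃ * d := by rw [hz₃]; group
    have e4 : z₃ * z₁ = 1 := by
      -- conjugate `e1` by `t⁻¹`
      have h1 : d = t⁻¹ * (z₁ * d) * t := by rw [← e1]; group
      have h2 : t⁻¹ * (z₁ * d) * t = z₁ * (t⁻¹ * d * t) := by
        have h3 := h.central hz₁Z hti
        calc t⁻¹ * (z₁ * d) * t = (t⁻¹ * z₁) * d * t := by group
          _ = (z₁ * t⁻¹) * d * t := by rw [h3]
          _ = z₁ * (t⁻¹ * d * t) := by group
      rw [h2, e3] at h1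
      have h4 : (z₁ * z₃) * d = 1 * d := by
        rw [one_mul, mul_assoc]
        exact h1.symm
      have h5 := mul_right_cancel h4
      rw [h.Zt_ab hz₃Z hz₁Z]
      exact h5
    have hbt : b * t⁻¹ * b⁻¹ ∈ T := nconj (h.zp_T hb) hti
    have e5 : (b * t⁻¹ * b⁻¹) * d * (b * t⁻¹ * b⁻¹)⁻¹ = z₃ * d := by
      have h1 : b⁻¹ * d * b = d := by rw [mul_assoc, ← hbd]; group
      have h2 : (b * t⁻¹ * b⁻¹) * d * (b * t⁻¹ * b⁻¹)⁻¹ = b * (t⁻¹ * (b⁻¹ * d * b) * t) * b⁻¹ := by group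
      rw [h2, h1, e3]
      have h3 := h.zp_Z hb hz₃Z
      calc b * (z₃ * d) * b⁻¹ = (b * z₃) * d * b⁻¹ := by group
        _ = (z₃ * b) * d * b⁻¹ := by rw [h3]
        _ = z₃ * (b * d) * b⁻¹ := by group
        _ = z₃ * (d * b) * b⁻¹ := by rw [hbd]
        _ = z₃ * d := by group
    have e6 : (t * b * t⁻¹ * b⁻¹) * d * (t * b * t⁻¹ * b⁻¹)⁻¹ = d := by
      have h1 : t * b * t⁻¹ * b⁻¹ = t * (b * t⁻¹ * b⁻¹) := by group
      rw [h1]
      have h2 : (t * (b * t⁻¹ * b⁻¹)) * d * (t * (b * t⁻¹ * b⁻¹))⁻¹ =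
          t * ((b * t⁻¹ * b⁻¹) * d * (b * t⁻¹ * b⁻¹)⁻¹) * t⁻¹ := by group
      rw [h2, e5]
      have h3 := h.central hz₃Z ht
      calc t * (z₃ * d) * t⁻¹ = (t * z₃) * d * t⁻¹ := by group
        _ = (z₃ * t) * d * t⁻¹ := by rw [h3]
        _ = z₃ * (t * d * t⁻¹) := by group
        _ = z₃ * (z₁ * d) := by rw [e1]
        _ = (z₃ * z₁) * d := by group
        _ = d := by rw [e4, one_mul]
    calc (t * b * t⁻¹ * b⁻¹) * d = ((t * b * t⁻¹ * b⁻¹) * d * (t * b * t⁻¹ * b⁻¹)⁻¹) * (t * b * t⁻¹ * b⁻¹) := by group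
      _ = d * (t * b * t⁻¹ * b⁻¹) := by rw [e6]
  exact Subgroup.mem_centralizer_singleton_iff.mp (hle he)

/-- Fixed by `c` modulo `Z_t` implies fixed by `⟨c⟩` modulo `Z_t`. -/
theorem fix_zp {e : H} (hce : c * e * c⁻¹ * e⁻¹ ∈ Zt T P) {a : H} (ha : a ∈ Subgroup.zpowers c) :
    a * e * a⁻¹ * e⁻¹ ∈ Zt T P := by
  let S : Subgroup H :=
    { carrier := {a | (∀ z ∈ Zt T P, a * z = z * a) ∧ a * e * a⁻¹ * e⁻¹ ∈ Zt T P}
      mul_mem' := by
        rintro a b ⟨h1, h2⟩ ⟨k1, k2⟩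
        refine ⟨fun z hz => ?_, ?_⟩
        · rw [mul_assoc, k1 z hz, ← mul_assoc, h1 z hz, mul_assoc]
        · have e1 : (a * b) * e * (a * b)⁻¹ * e⁻¹ = (a * (b * e * b⁻¹ * e⁻¹) * a⁻¹) * (a * e * a⁻¹ * e⁻¹) := by
            group
          rw [e1]
          refine (Zt T P).mul_mem ?_ h2
          rw [h1 _ k2]
          simpa using k2
      one_mem' := ⟨fun z _ => by simp, by simp [Subgroup.one_mem]⟩
      inv_mem' := by
        rintro a ⟨h1, h2⟩
        have hinv : ∀ z ∈ Zt T P, a⁻¹ * z = z * a⁻¹ := by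
          intro z hz
          calc a⁻¹ * z = a⁻¹ * (z * a) * a⁻¹ := by group
            _ = a⁻¹ * (a * z) * a⁻¹ := by rw [h1 z hz]
            _ = z * a⁻¹ := by group
        refine ⟨hinv, ?_⟩
        have e1 : a⁻¹ * e * a⁻¹⁻¹ * e⁻¹ = a⁻¹ * (a * e * a⁻¹ * e⁻¹)⁻¹ * a := by group
        rw [e1, hinv _ ((Zt T P).inv_mem h2)]
        simpa using (Zt T P).inv_mem h2 }
  have hle : Subgroup.zpowers c ≤ S :=
    (Subgroup.zpowers_le).mpr ⟨fun z hz => h.c_Zt hz, hce⟩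
  exact (hle ha).2

/-- An element of `E` fixed by `c` modulo `Z_t` lies in `Z_t`. -/
theorem E_fix {e : H} (he : e ∈ EE T c) (hce : c * e * c⁻¹ * e⁻¹ ∈ Zt T P) : e ∈ Zt T P :=
  mem_of_fixed_mod T (Subgroup.zpowers c) (Zt T P) h.Zt_le h.T_Zt ((Subgroup.zpowers_le).mpr h.cZ) h.zp_T
    h.comm_le h.cop_c he (fun _ ha => h.fix_zp hce ha)

/-- `E` does not lie in `Z_t`. -/
theorem E_not : ¬ EE T c ≤ Zt T P := by
  intro hle
  apply h.Tnc
  have h1 : ⁅EE T c, Subgroup.zpowers c⁆ = ⊥ := by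
    rw [Subgroup.commutator_eq_bot_iff_le_centralizer]
    intro e he
    apply Subgroup.mem_centralizer_iff.mpr
    intro g hg
    exact h.zp_Z hg (hle he)
  have h2 := commutator_commutator_eq h.zp_T h.cop_c (Or.inr h.solvT)
  have h3 : ⁅T, Subgroup.zpowers c⁆ = ⊥ := by
    rw [← h2]
    exact h1
  exact Subgroup.commutator_eq_bot_iff_le_centralizer.mp h3

/-- Lifting fixed points of `c` modulo `Z_t`. -/
theorem fix_lift {t : H} (ht : t ∈ T) (hct : c * t * c⁻¹ * t⁻¹ ∈ Zt T P) :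
    ∃ d ∈ CC T c, t⁻¹ * d ∈ Zt T P := by
  obtain ⟨d, hd, hk⟩ := exists_fixed_of_fixed_mod (Zt T P) (A := Subgroup.zpowers c) (K := T) h.zp_T h.cop_c
    (Or.inr h.solvT) h.Zt_le h.T_Zt ((Subgroup.zpowers_le).mpr h.cZ) ht (fun _ ha => h.fix_zp hct ha)
  exact ⟨d, hd, hk⟩

/-- Lifting fixed points of `P` modulo `Z_t`. -/
theorem fixP {t : H} (ht : t ∈ T) (hct : ∀ g ∈ P, g * t * g⁻¹ * t⁻¹ ∈ Zt T P) : t ∈ Zt T P := by
  obtain ⟨d, hd, hk⟩ := exists_fixed_of_fixed_mod (Zt T P) (A := P) (K := T) h.PT h.cop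
    (Or.inr h.solvT) h.Zt_le h.T_Zt h.PZ ht hct
  have h1 := (Zt T P).mul_mem hd hk
  have h2 : t = d * (t⁻¹ * d)⁻¹ := by group
  rw [h2]
  exact (Zt T P).mul_mem hd ((Zt T P).inv_mem hk)

end MinData

/-- The hyperplane data. -/
structure HypData (r u q : ℕ) (T P : Subgroup H) (c : H) (L : Subgroup H) (y : H) (v₀ : V) : Prop where
  M : MinData V r u q T P c
  Lle : L ≤ Zt T P
  yZ : y ∈ Zt T P
  yL : y ∉ L
  vL : ∀ l ∈ L, l • v₀ = v₀
  yv : y • v₀ ≠ v₀
  gen : ∀ t ∈ Zt T P, ∃ l ∈ L, ∃ n : ℤ, t = l * y ^ n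

namespace HypData

variable {r u q : ℕ} {T P : Subgroup H} {c : H} {L : Subgroup H} {y : H} {v₀ : V}
  (h : HypData r u q T P c L y v₀)
include h

theorem y2 : y ^ 2 = 1 := by
  have h1 := h.M.Zexp h.yZ
  rwa [h.M.u_eq] at h1

/-- Every element of `Z_t` is `l` or `l y`. -/
theorem gen2 {t : H} (ht : t ∈ Zt T P) : ∃ l ∈ L, t = l ∨ t = l * y := by
  obtain ⟨l, hl, n, rfl⟩ := h.gen t ht
  refine ⟨l, hl, ?_⟩
  have hy2 : y ^ (2 : ℤ) = 1 := by exact_mod_cast h.y2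
  rcases Int.even_or_odd' n with ⟨k, rfl | rfl⟩
  · left
    rw [zpow_mul, hy2, one_zpow, mul_one]
  · right
    rw [zpow_add, zpow_mul, hy2, one_zpow, one_mul, zpow_one]

/-- `L` is the kernel on its fixed points, in `Z_t`. -/
theorem ker_Z {z : H} (hz : z ∈ Zt T P) (hfix : ∀ w ∈ fixS V L, z • w = w) : z ∈ L := by
  obtain ⟨l, hl, rfl | rfl⟩ := h.gen2 hz
  · exact hl
  · exfalso
    apply h.yv
    have h1 := hfix v₀ h.vL
    rw [mul_smul] at h1
    have h2 := h.vL l⁻¹ (L.inv_mem hl)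
    calc y • v₀ = l⁻¹ • (l • y • v₀) := (inv_smul_smul _ _).symm
      _ = l⁻¹ • v₀ := by rw [h1]
      _ = v₀ := h2

/-- Elements of `T` preserve the fixed points of `L`. -/
theorem T_W {t : H} (ht : t ∈ T) {w : V} (hw : w ∈ fixS V L) : t • w ∈ fixS V L := by
  intro l hl
  rw [← mul_smul, ← h.M.central (h.Lle hl) ht, mul_smul, hw l hl]

theorem c_W {w : V} (hw : w ∈ fixS V L) : c • w ∈ fixS V L := by
  intro l hl
  rw [← mul_smul, ← h.M.c_Zt (h.Lle hl), mul_smul, hw l hl]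

/-- The radical. -/
theorem rad_le {x : H} (hx : x ∈ T) (hc : ∀ t ∈ T, x * t * x⁻¹ * t⁻¹ ∈ L) : x ∈ Zt T P := by
  have hM := h.M
  have hcent : ∀ {a b t : H}, a ∈ T → t ∈ T → b ∈ T → b * (a * t * a⁻¹ * t⁻¹) = (a * t * a⁻¹ * t⁻¹) * b := by
    intro a b t ha ht hb
    exact hM.central (hM.comm_le (Subgroup.commutator_mem_commutator ha ht)) hb
  let R : Subgroup H :=
    { carrier := {x | x ∈ T ∧ ∀ t ∈ T, x * t * x⁻¹ * t⁻¹ ∈ L}
      mul_mem' := by
        rintro a b ⟨h1, h2⟩ ⟨k1, k2⟩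
        refine ⟨T.mul_mem h1 k1, fun t ht => ?_⟩
        have e1 : (a * b) * t * (a * b)⁻¹ * t⁻¹ = (a * (b * t * b⁻¹ * t⁻¹) * a⁻¹) * (a * t * a⁻¹ * t⁻¹) := by
          group
        rw [e1]
        refine L.mul_mem ?_ (h2 t ht)
        rw [hcent k1 ht h1]
        simpa using k2 t ht
      one_mem' := ⟨T.one_mem, fun t _ => by simp [Subgroup.one_mem]⟩
      inv_mem' := by
        rintro a ⟨h1, h2⟩
        refine ⟨T.inv_mem h1, fun t ht => ?_⟩
        have e1 : a⁻¹ * t * a⁻¹⁻¹ * t⁻¹ = a⁻¹ * (a * t * a⁻¹ * t⁻¹)⁻¹ * a := by group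
        rw [e1]
        have h3 := hM.central ((Zt T P).inv_mem (hM.comm_le (Subgroup.commutator_mem_commutator h1 ht))) (T.inv_mem h1)
        have e2 : a⁻¹ * ⁅a, t⁆⁻¹ * a = ⁅a, t⁆⁻¹ := by
          rw [h3]; group
        rw [commutatorElement_def] at e2
        rw [e2]
        exact L.inv_mem (h2 t ht) }
  have hRT : R ≤ T := fun x hx => hx.1
  have hconj : ∀ g : H, g ∈ Subgroup.normalizer (T : Set H) → (∀ z ∈ Zt T P, g * z = z * g) →
      g ∈ Subgroup.normalizer (R : Set H) := by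
    intro g hg hgz
    apply IsF.mem_normalizer_of_conj
    rintro a ⟨h1, h2⟩
    refine ⟨nconj hg h1, fun t ht => ?_⟩
    have ht' : g⁻¹ * t * g ∈ T := by
      have := nconj (Subgroup.inv_mem _ hg) ht
      simpa using this
    have h3 := h2 _ ht'
    have e1 : (g * a * g⁻¹) * t * (g * a * g⁻¹)⁻¹ * t⁻¹ =
        g * (a * (g⁻¹ * t * g) * a⁻¹ * (g⁻¹ * t * g)⁻¹) * g⁻¹ := by group
    rw [e1, hgz _ (h.Lle h3)]
    simpa using h3
  have hne : R ≠ T := by
    intro he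
    apply h.yL
    have h1 : ⁅T, T⁆ ≤ L := by
      rw [Subgroup.commutator_le]
      intro a ha b hb
      have h2 : a ∈ R := by rw [he]; exact ha
      exact h2.2 b hb
    have h3 := h.yZ
    rw [hM.Zt_eq] at h3
    exact h1 h3
  have hle := hM.proper hRT (hconj c hM.cT fun z hz => hM.c_Zt hz)
    (fun g hg => hconj g (hM.PT hg) fun z hz => (mem_Zt.mp hz).2 g hg) hne
  exact hle ⟨hx, hc⟩

/-- `L` is the kernel of `T` on its fixed points. -/
theorem ker_T {t : H} (ht : t ∈ T) (hfix : ∀ w ∈ fixS V L, t • w = w) : t ∈ L := by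
  have hM := h.M
  have htZ : t ∈ Zt T P := by
    apply h.rad_le ht
    intro s hs
    apply h.ker_Z (hM.comm_le (Subgroup.commutator_mem_commutator ht hs))
    intro w hw
    have h1 := hfix _ (h.T_W (T.inv_mem hs) hw)
    have h2 : t⁻¹ • s⁻¹ • w = s⁻¹ • w := by rw [inv_smul_eq_iff, h1]
    show (t * s * t⁻¹ * s⁻¹) • w = w
    rw [mul_smul, mul_smul, mul_smul, h2, smul_inv_smul, hfix w hw]
  exact h.ker_Z htZ hfix

set_option maxHeartbeats 1000000 in
/-- **The extraspecial section.** -/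
theorem extra_abs {W' : Type*} [AddCommGroup W'] [Finite W'] (hW0 : ∀ w : W', r • w = 0)
    (act : Subgroup.normalizer (L : Set H) → (W' →+ W'))
    (act1 : act 1 = AddMonoidHom.id W') (act2 : ∀ g k, act (g * k) = (act g).comp (act k))
    (hK1 : ∀ s : Subgroup.normalizer (L : Set H), (s : H) ∈ L → act s = AddMonoidHom.id W')
    (hK2 : ∀ s : Subgroup.normalizer (L : Set H), (s : H) ∈ T → act s = AddMonoidHom.id W' → (s : H) ∈ L)
    (hK3 : ∀ s : Subgroup.normalizer (L : Set H), (s : H) = c → ∀ w, act s w = w → w = 0)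
    (hK4 : ∃ w : W', w ≠ 0) : ∃ n : ℕ, q = 2 ^ n + 1 ∧
    Nat.card (EE T c) = Nat.card ↥(EE T c ⊓ L) * 2 ^ (2 * n + 1) ∧
    Nat.card ↥(EE T c ⊓ Zt T P) = Nat.card ↥(EE T c ⊓ L) * 2 := by
  classical
  have hM := h.M
  haveI := hM.fact_u
  haveI := hM.fact_q
  haveI := hM.fact_r
  have hu2 := hM.u_eq
  let E : Subgroup H := EE T c
  have hET : E ≤ T := hM.E_le
  let S₀ : Subgroup H := Subgroup.normalizer (L : Set H)
  have hTS : T ≤ S₀ := fun t ht => IsF.mem_normalizer_of_conj L fun l hl => by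
    rw [hM.central (h.Lle hl) ht]
    simpa using hl
  have hcS : c ∈ S₀ := IsF.mem_normalizer_of_conj L fun l hl => by
    rw [hM.c_Zt (h.Lle hl)]
    simpa using hl
  let L' : Subgroup S₀ := L.subgroupOf S₀
  haveI hL' : L'.Normal := by
    constructor
    rintro ⟨n, hn⟩ hn' ⟨g, hg⟩
    rw [Subgroup.mem_subgroupOf] at hn' ⊢
    exact nconj hg hn'
  obtain ⟨instM, ρ₀, hρ₀⟩ : ∃ (_ : Module (ZMod r) W') (ρ₀ : S₀ →* Module.End (ZMod r) W'),
      ∀ g v, ρ₀ g v = act g v := by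
    letI instM : Module (ZMod r) W' := AddCommGroup.zmodModule hW0
    obtain ⟨ρ₀, hρ₀⟩ := Cfsg.Agent.Lib.HallHigman.Section.exists_linear_of_additive (p := r) (G := S₀)
      (V := W') act act1 act2
    exact ⟨instM, ρ₀, hρ₀⟩
  haveI instF : FiniteDimensional (ZMod r) W' := Module.Finite.of_finite
  have hρ₀L : L' ≤ ρ₀.ker := by
    intro s hs
    show ρ₀ s = 1
    ext w
    rw [hρ₀, hK1 s (Subgroup.mem_subgroupOf.mp hs)]
    rfl
  let ρb : S₀ ⧸ L' →* Module.End (ZMod r) W' := QuotientGroup.lift L' ρ₀ hρ₀L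
  let bar : S₀ →* S₀ ⧸ L' := QuotientGroup.mk' L'
  have hbar1 : ∀ s : S₀, bar s = 1 ↔ (s : H) ∈ L := by
    intro s
    rw [show bar s = (s : S₀ ⧸ L') from rfl, QuotientGroup.eq_one_iff, Subgroup.mem_subgroupOf]
  have hbarρ : ∀ s : S₀, ρb (bar s) = ρ₀ s := fun s => rfl
  have hES : E ≤ S₀ := hET.trans hTS
  let ι : E →* S₀ := Subgroup.inclusion hES
  let f₀ : E →* S₀ ⧸ L' := bar.comp ι
  let Q : Subgroup (S₀ ⧸ L') := f₀.range
  let x : S₀ ⧸ L' := bar ⟨c, hcS⟩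
  have hfaith : ∀ g ∈ Q, ρb g = 1 → g = 1 := by
    rintro _ ⟨e, rfl⟩ hg
    show bar (ι e) = 1
    rw [hbar1]
    apply hK2 (ι e) (hET e.2)
    have h1 : ρ₀ (ι e) = 1 := hg
    ext w
    rw [← hρ₀, h1]
    rfl
  have hfree : ∀ v, ρb x v = v → v = 0 := by
    intro v hv
    have h1 : ρ₀ ⟨c, hcS⟩ v = v := hv
    rw [hρ₀] at h1
    exact hK3 ⟨c, hcS⟩ rfl v h1
  have hxq : x ^ q = 1 := by
    show (bar ⟨c, hcS⟩) ^ q = 1
    rw [← map_pow]
    have : (⟨c, hcS⟩ : S₀) ^ q = 1 := Subtype.ext hM.c_pow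
    rw [this, map_one]
  have hx1 : x ≠ 1 := by
    intro hx
    have h1 : ρb x = 1 := by rw [hx, map_one]
    obtain ⟨w, hw⟩ := hK4
    apply hw
    apply hK3 ⟨c, hcS⟩ rfl
    have h3 : ρ₀ ⟨c, hcS⟩ = ρb x := rfl
    rw [← hρ₀, h3, h1]
    rfl
  have hxord : orderOf x = q := orderOf_eq_prime hxq hx1
  have hconjx : ∀ e : E, ∃ e' : E, (e' : H) = c * e * c⁻¹ ∧ f₀ e' = x * f₀ e * x⁻¹ := by
    intro e
    refine ⟨⟨c * e * c⁻¹, nconj hM.c_E e.2⟩, rfl, ?_⟩
    show bar (ι _) = bar ⟨c, hcS⟩ * bar (ι e) * (bar ⟨c, hcS⟩)⁻¹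
    rw [← map_inv, ← map_mul, ← map_mul]
    rfl
  have hxN : x ∈ Subgroup.normalizer (Q : Set (S₀ ⧸ L')) := by
    apply IsF.mem_normalizer_of_conj
    rintro _ ⟨e, rfl⟩
    obtain ⟨e', -, he'⟩ := hconjx e
    exact ⟨e', he'⟩
  have hE_p : IsPGroup u E := hM.Tp.to_le hET
  let fQ : E →* Q := f₀.rangeRestrict
  have hfQ : Function.Surjective fQ := f₀.rangeRestrict_surjective
  have hfQv : ∀ e : E, ((fQ e : Q) : S₀ ⧸ L') = f₀ e := fun e => rfl
  have hQp : IsPGroup u Q := hE_p.of_surjective fQ hfQ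
  have hcommx : ∀ e : E, f₀ e * x = x * f₀ e → (e : H) ∈ Zt T P := by
    intro e he
    apply hM.E_fix e.2
    apply h.Lle
    have h1 : bar (⟨c, hcS⟩ * ι e * (⟨c, hcS⟩)⁻¹ * (ι e)⁻¹) = 1 := by
      rw [map_mul, map_mul, map_mul, map_inv, map_inv]
      show x * f₀ e * x⁻¹ * (f₀ e)⁻¹ = 1
      rw [← he]
      group
    rw [hbar1] at h1
    exact h1
  have hne : ¬ Q ≤ Subgroup.centralizer (Subgroup.zpowers x : Set (S₀ ⧸ L')) := by
    intro hle
    apply hM.E_not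
    intro e he
    refine hcommx ⟨e, he⟩ ?_
    exact (Subgroup.mem_centralizer_iff.mp (hle ⟨⟨e, he⟩, rfl⟩) x (Subgroup.mem_zpowers x)).symm
  obtain ⟨m, -, -, hna⟩ := Cfsg.Agent.Lib.HallHigman.Semisimple.fixed_or_exc (F := ZMod r) (W := W')
    (H := S₀ ⧸ L') (q := u) (r := q) hM.u_cast hM.q_cast hM.uq ρb Q hQp x hxN hxord hne hfaith hfree
  -- central elements of `Q`
  have hcen1 : ∀ e : E, (e : H) ∈ Zt T P → fQ e ∈ Subgroup.center Q := by
    intro e he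
    rw [Subgroup.mem_center_iff]
    intro g
    obtain ⟨e', rfl⟩ := hfQ g
    rw [← map_mul, ← map_mul]
    congr 1
    apply Subtype.ext
    exact hM.central he (hET e'.2)
  have hcen2 : ∀ e : E, fQ e ∈ Subgroup.center Q → (e : H) ∈ Zt T P := by
    intro e he
    apply h.rad_le (hET e.2)
    intro t ht
    obtain ⟨e', he', d, hd, rfl⟩ := hM.split ht
    have h1 : e * d = d * e := hM.comm_E_C e.2 hd
    have h2 : (e : H) * (e' * d) * (e : H)⁻¹ * (e' * d)⁻¹ = e * e' * (e : H)⁻¹ * e'⁻¹ := by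
      have h3 : d * (e : H)⁻¹ * d⁻¹ = (e : H)⁻¹ := by
        calc d * (e : H)⁻¹ * d⁻¹ = (e : H)⁻¹ * (e * d) * (e : H)⁻¹ * d⁻¹ := by group
          _ = (e : H)⁻¹ * (d * e) * (e : H)⁻¹ * d⁻¹ := by rw [h1]
          _ = (e : H)⁻¹ := by group
      calc (e : H) * (e' * d) * (e : H)⁻¹ * (e' * d)⁻¹ = e * e' * (d * (e : H)⁻¹ * d⁻¹) * e'⁻¹ := by group
        _ = e * e' * (e : H)⁻¹ * e'⁻¹ := by rw [h3]
    rw [h2]
    have h4 := Subgroup.mem_center_iff.mp he (fQ ⟨e', he'⟩)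
    have h5 : f₀ ⟨e', he'⟩ * f₀ e = f₀ e * f₀ ⟨e', he'⟩ := by
      exact congrArg Subtype.val h4
    have h6 : bar (ι e * ι ⟨e', he'⟩ * (ι e)⁻¹ * (ι ⟨e', he'⟩)⁻¹) = 1 := by
      rw [map_mul, map_mul, map_mul, map_inv, map_inv]
      show f₀ e * f₀ ⟨e', he'⟩ * (f₀ e)⁻¹ * (f₀ ⟨e', he'⟩)⁻¹ = 1
      rw [← h5]
      group
    rw [hbar1] at h6
    exact h6
  have hyS : y ∈ S₀ := hTS (h.M.Zt_le h.yZ)
  have h2e : ∀ e : E, (e : H) ∈ Zt T P → fQ e = 1 ∨ f₀ e = bar ⟨y, hyS⟩ := by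
    intro e he
    obtain ⟨l, hl, hel | hel⟩ := h.gen2 he
    · left
      apply Subtype.ext
      show f₀ e = 1
      show bar (ι e) = 1
      rw [hbar1]
      show (e : H) ∈ L
      rw [hel]
      exact hl
    · right
      show bar (ι e) = _
      have hlS : l ∈ S₀ := hTS (hM.Zt_le (h.Lle hl))
      have h1 : ι e = ⟨l, hlS⟩ * ⟨y, hyS⟩ := Subtype.ext hel
      rw [h1, map_mul]
      have h2 : bar ⟨l, hlS⟩ = 1 := (hbar1 _).mpr hl
      rw [h2, one_mul]
  -- the commutator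
  have hQna : ∃ a b : Q, a * b ≠ b * a := by
    by_contra hcon
    push Not at hcon
    exact hna ⟨⟨hcon⟩⟩
  obtain ⟨a₀, b₀, hab⟩ := hQna
  have hcomm_le : commutator Q ≤ Subgroup.center Q := by
    rw [commutator_def, Subgroup.commutator_le]
    intro a _ b _
    obtain ⟨e₁, rfl⟩ := hfQ a
    obtain ⟨e₂, rfl⟩ := hfQ b
    rw [← map_commutatorElement]
    apply hcen1
    exact hM.comm_le (Subgroup.commutator_mem_commutator (hET e₁.2) (hET e₂.2))
  set g₀ : Q := ⁅a₀, b₀⁆ with hg₀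
  have hg₀c : g₀ ∈ commutator Q := by
    rw [commutator_def]
    exact Subgroup.commutator_mem_commutator (Subgroup.mem_top _) (Subgroup.mem_top _)
  have hg₀1 : g₀ ≠ 1 := by
    intro h1
    exact hab (commutatorElement_eq_one_iff_mul_comm.mp h1)
  have huniq : ∀ g ∈ Subgroup.center Q, g = 1 ∨ g = g₀ := by
    intro g hg
    obtain ⟨e, rfl⟩ := hfQ g
    obtain ⟨e₀, he₀⟩ := hfQ g₀
    have hg₀z : fQ e₀ ∈ Subgroup.center Q := by
      rw [he₀]
      exact hcomm_le hg₀c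
    rcases h2e e (hcen2 e hg) with h1 | h1
    · exact Or.inl h1
    · rcases h2e e₀ (hcen2 e₀ hg₀z) with h2 | h2
      · rw [he₀] at h2
        exact absurd h2 hg₀1
      · right
        rw [← he₀]
        apply Subtype.ext
        show f₀ e = f₀ e₀
        rw [h1, h2]
  have hZcard : Nat.card (Subgroup.center Q) = u := by
    rw [hu2, Nat.card_eq_two_iff' (1 : Subgroup.center Q)]
    refine ⟨⟨g₀, hcomm_le hg₀c⟩, ?_, ?_⟩
    · intro h1
      exact hg₀1 (congrArg Subtype.val h1)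
    · rintro ⟨g, hg⟩ hg1
      rcases huniq g hg with h2 | h2
      · exact absurd (Subtype.ext h2) hg1
      · exact Subtype.ext h2
  have hQc : commutator Q = Subgroup.center Q := by
    apply le_antisymm hcomm_le
    intro g hg
    rcases huniq g hg with h2 | h2
    · rw [h2]
      exact Subgroup.one_mem _
    · rw [h2]
      exact hg₀c
  have hC : ∀ g ∈ Q, g * x = x * g → ∀ k ∈ Q, g * k = k * g := by
    rintro _ ⟨e, rfl⟩ he _ ⟨e', rfl⟩
    have h1 := hcommx e he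
    show f₀ e * f₀ e' = f₀ e' * f₀ e
    rw [← map_mul, ← map_mul]
    congr 1
    apply Subtype.ext
    exact (hM.central h1 (hET e'.2)).symm
  obtain ⟨-, n, hqn, hcardQ⟩ := Cfsg.Agent.Lib.HallHigman.Extraspecial.of_free (F := ZMod r) (W := W')
    (H := S₀ ⧸ L') (q := u) (r := q) hM.u_cast hM.q_cast hM.uq ρb Q hQp hZcard hQc x hxN hxord hC
    hfaith hfree
  refine ⟨n, hqn, ?_, ?_⟩
  · have h1 := Cfsg.Agent.Lib.Core.Basic.card_eq_card_ker_mul_of_surjective fQ hfQ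
    have hker : (fQ.ker).map E.subtype = E ⊓ L := by
      ext z
      constructor
      · rintro ⟨e, he, rfl⟩
        refine ⟨e.2, ?_⟩
        have h2 : fQ e = 1 := he
        have h3 : bar (ι e) = 1 := congrArg Subtype.val h2
        exact (hbar1 _).mp h3
      · rintro ⟨hz1, hz2⟩
        refine ⟨⟨z, hz1⟩, ?_, rfl⟩
        show fQ _ = 1
        apply Subtype.ext
        exact (hbar1 _).mpr hz2
    have h2 : Nat.card ↥(E ⊓ L) = Nat.card fQ.ker := by
      rw [← hker]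
      exact Subgroup.card_map_of_injective E.subtype_injective
    rw [h1, hcardQ, h2]
  · let g : ↥(E ⊓ Zt T P) →* Subgroup.center Q :=
      (fQ.comp (Subgroup.inclusion inf_le_left)).codRestrict (Subgroup.center Q) (fun e => hcen1 _ e.2.2)
    have hg : Function.Surjective g := by
      rintro ⟨k, hk⟩
      obtain ⟨e, rfl⟩ := hfQ k
      refine ⟨⟨e, e.2, hcen2 e hk⟩, ?_⟩
      apply Subtype.ext
      rfl
    have h1 := Cfsg.Agent.Lib.Core.Basic.card_eq_card_ker_mul_of_surjective g hg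
    have hker : (g.ker).map (E ⊓ Zt T P).subtype = E ⊓ L := by
      ext z
      constructor
      · rintro ⟨e, he, rfl⟩
        refine ⟨e.2.1, ?_⟩
        have h2 : g e = 1 := he
        have h3 : bar (ι ⟨e, e.2.1⟩) = 1 := congrArg (fun t : Subgroup.center Q => ((t : Q) : S₀ ⧸ L')) h2
        exact (hbar1 _).mp h3
      · rintro ⟨hz1, hz2⟩
        refine ⟨⟨z, hz1, h.Lle hz2⟩, ?_, rfl⟩
        show g _ = 1
        apply Subtype.ext
        apply Subtype.ext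
        exact (hbar1 _).mpr hz2
    have h2 : Nat.card ↥(E ⊓ L) = Nat.card g.ker := by
      rw [← hker]
      exact Subgroup.card_map_of_injective (E ⊓ Zt T P).subtype_injective
    rw [h1, hZcard, hu2, h2]

/-- **The extraspecial section.** -/
theorem extra : ∃ n : ℕ, q = 2 ^ n + 1 ∧
    Nat.card (EE T c) = Nat.card ↥(EE T c ⊓ L) * 2 ^ (2 * n + 1) ∧
    Nat.card ↥(EE T c ⊓ Zt T P) = Nat.card ↥(EE T c ⊓ L) * 2 := by
  have hM := h.M
  have hWS : ∀ g ∈ Subgroup.normalizer (L : Set H), ∀ w ∈ fixS V L, g • w ∈ fixS V L := by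
    intro g hg w hw l hl
    have h1 : g⁻¹ * l * g ∈ L := by
      have := nconj (Subgroup.inv_mem _ hg) hl
      simpa using this
    have e : l • g • w = g • ((g⁻¹ * l * g) • w) := by
      rw [← mul_smul, ← mul_smul]
      congr 1
      group
    rw [e, hw _ h1]
  have hW0 : ∀ w : fixS V L, r • w = 0 := fun w => Subtype.ext (hM.Vexp w)
  let act : Subgroup.normalizer (L : Set H) → (fixS V L →+ fixS V L) := fun g =>
    { toFun := fun w => ⟨(g : H) • (w : V), hWS g g.2 w w.2⟩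
      map_zero' := Subtype.ext (smul_zero _)
      map_add' := fun a b => Subtype.ext (smul_add _ _ _) }
  refine h.extra_abs hW0 act ?_ ?_ ?_ ?_ ?_ ?_
  · ext w
    exact one_smul H (w : V)
  · intro g k
    ext w
    exact mul_smul (g : H) (k : H) (w : V)
  · intro s hs
    ext w
    exact w.2 _ hs
  · intro s hs hs1
    apply h.ker_T hs
    intro w hw
    have h1 := congrArg (fun f : fixS V L →+ fixS V L => ((f ⟨w, hw⟩ : fixS V L) : V)) hs1
    exact h1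
  · intro s hs w hw
    have h1 : (s : H) • (w : V) = w := congrArg Subtype.val hw
    rw [hs] at h1
    exact Subtype.ext (hM.cV _ h1)
  · refine ⟨⟨v₀, h.vL⟩, fun h0 => ?_⟩
    have h1 : v₀ = 0 := congrArg Subtype.val h0
    apply h.yv
    rw [h1, smul_zero]

end HypData

end Cfsg.Agent.Lib.FrobAct.LMin
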