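import Cfsg.Agent.Lib.FrobAct.Weights
import Cfsg.Agent.Lib.HallHigman.FixedPoints
import Cfsg.Agent.Lib.HallHigman.Semisimple
import Cfsg.Agent.Lib.HallHigman.Section

/-!
# A Frobenius group acting on a `u`-group and a module: the minimal situation
-/

set_option autoImplicit false

namespace Cfsg.Agent.Lib.FrobAct.LMin

open Cfsg.Agent.Lib.Ward.Norm Cfsg.Agent.Lib.Ward.Setup Cfsg.Agent.Lib.Ward.Elem
open Cfsg.Agent.Lib.FrobAct.Basic Cfsg.Agent.Lib.FrobAct.Weights Cfsg.Agent.Lib.Coprime.Action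
open scoped commutatorElement

section Gen

variable {H : Type*} [Group H] [Finite H]

omit [Finite H] in
theorem nconj {T : Subgroup H} {g y : H} (hg : g ∈ Subgroup.normalizer (T : Set H)) (hy : y ∈ T) :
    g * y * g⁻¹ ∈ T := (Subgroup.mem_normalizer_iff.mp hg y).mp hy

/-- A nontrivial solvable subgroup is not perfect. -/
theorem comm_ne_self (Z : Subgroup H) [Group.IsSolvable Z] (hZ : Z ≠ ⊥) : ⁅Z, Z⁆ ≠ Z := by
  intro he
  have hnt : Nontrivial Z := by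
    rw [Subgroup.nontrivial_iff_ne_bot]
    exact hZ
  have hlt := Group.IsSolvable.commutator_lt_top_of_nontrivial Z
  apply hlt.ne
  apply Subgroup.map_injective Z.subtype_injective
  have e1 : (⊤ : Subgroup Z).map Z.subtype = Z := by
    rw [← MonoidHom.range_eq_map, Subgroup.range_subtype]
  show (⁅(⊤ : Subgroup Z), (⊤ : Subgroup Z)⁆).map Z.subtype = _
  rw [Subgroup.map_commutator, e1, he]

/-- If `a ∈ ⁅K, A⁆` is fixed by `A` modulo `N ≥ ⁅K, K⁆`, then `x ∈ N`. -/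
theorem mem_of_fixed_mod (K A N : Subgroup H) (hNK : N ≤ K) (hKN : K ≤ Subgroup.normalizer (N : Set H))
    (hAN : A ≤ Subgroup.normalizer (N : Set H)) (hAK : A ≤ Subgroup.normalizer (K : Set H))
    (hcomm : ⁅K, K⁆ ≤ N) (hcop : (Nat.card A).Coprime (Nat.card K)) {x : H} (hx : x ∈ ⁅K, A⁆)
    (hfix : ∀ a ∈ A, a * x * a⁻¹ * x⁻¹ ∈ N) : x ∈ N := by
  let M : Subgroup H := Subgroup.normalizer (N : Set H)
  let N' : Subgroup M := N.subgroupOf M
  haveI hN' : N'.Normal := by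
    constructor
    rintro ⟨n, hn⟩ hn' ⟨g, hg⟩
    rw [Subgroup.mem_subgroupOf] at hn' ⊢
    exact nconj hg hn'
  let π : M →* M ⧸ N' := QuotientGroup.mk' N'
  let V : Subgroup (M ⧸ N') := (K.subgroupOf M).map π
  let A₁ : Subgroup (M ⧸ N') := (A.subgroupOf M).map π
  have hπ : ∀ m : M, π m = 1 ↔ (m : H) ∈ N := by
    intro m
    rw [show π m = (m : M ⧸ N') from rfl, QuotientGroup.eq_one_iff, Subgroup.mem_subgroupOf]
  have hVc : IsMulCommutative V := by
    refine ⟨⟨?_⟩⟩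
    rintro ⟨_, ⟨a, ha, rfl⟩⟩ ⟨_, ⟨b, hb, rfl⟩⟩
    apply Subtype.ext
    show π a * π b = π b * π a
    have h1 : π ⁅a, b⁆ = 1 := by
      rw [hπ]
      exact hcomm (Subgroup.commutator_mem_commutator (Subgroup.mem_subgroupOf.mp ha)
        (Subgroup.mem_subgroupOf.mp hb))
    rw [map_commutatorElement, commutatorElement_eq_one_iff_mul_comm] at h1
    exact h1
  have hAV : A₁ ≤ Subgroup.normalizer (V : Set (M ⧸ N')) := by
    rintro _ ⟨a, ha, rfl⟩
    apply IsF.mem_normalizer_of_conj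
    rintro _ ⟨k, hk, rfl⟩
    refine ⟨a * k * a⁻¹, Subgroup.mem_subgroupOf.mpr ?_, by simp⟩
    exact nconj (hAK (Subgroup.mem_subgroupOf.mp ha)) (Subgroup.mem_subgroupOf.mp hk)
  have hcV : Nat.card V ∣ Nat.card K := by
    have h1 : Nat.card V ∣ Nat.card (K.subgroupOf M) := Subgroup.card_map_dvd _ _
    have h2 : Nat.card (K.subgroupOf M) = Nat.card K :=
      Nat.card_congr (Subgroup.subgroupOfEquivOfLe hKN).toEquiv
    rwa [h2] at h1
  have hcA : Nat.card A₁ ∣ Nat.card A := by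
    have h1 : Nat.card A₁ ∣ Nat.card (A.subgroupOf M) := Subgroup.card_map_dvd _ _
    have h2 : Nat.card (A.subgroupOf M) = Nat.card A :=
      Nat.card_congr (Subgroup.subgroupOfEquivOfLe hAN).toEquiv
    rwa [h2] at h1
  have hcop₁ : (Nat.card A₁).Coprime (Nat.card V) :=
    Nat.Coprime.coprime_dvd_left hcA (Nat.Coprime.coprime_dvd_right hcV hcop)
  have hbot := Cfsg.Agent.Lib.Coprime.Abelian.inf_commutator_eq_bot hAV hcop₁
  have hxK : x ∈ K := commutator_le_of_le_normalizer hAK hx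
  have hxM : x ∈ M := hKN hxK
  have hmem : π ⟨x, hxM⟩ ∈ (V ⊓ Subgroup.centralizer (A₁ : Set (M ⧸ N'))) ⊓ ⁅V, A₁⁆ := by
    refine ⟨⟨⟨⟨x, hxM⟩, Subgroup.mem_subgroupOf.mpr hxK, rfl⟩, ?_⟩, ?_⟩
    · apply Subgroup.mem_centralizer_iff.mpr
      rintro _ ⟨a, ha, rfl⟩
      have h1 : π (a * ⟨x, hxM⟩ * a⁻¹ * ⟨x, hxM⟩⁻¹) = 1 := by
        rw [hπ]
        exact hfix a (Subgroup.mem_subgroupOf.mp ha)
      rw [map_mul, map_mul, map_mul, map_inv, map_inv] at h1
      have h2 : π a * π ⟨x, hxM⟩ * (π a)⁻¹ = π ⟨x, hxM⟩ := mul_inv_eq_one.mp h1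
      calc π a * π ⟨x, hxM⟩ = (π a * π ⟨x, hxM⟩ * (π a)⁻¹) * π a := by group
        _ = π ⟨x, hxM⟩ * π a := by rw [h2]
    · have hle : ⁅K, A⁆ ≤ ((⁅V, A₁⁆ : Subgroup (M ⧸ N')).comap π).map M.subtype := by
        rw [Subgroup.commutator_le]
        intro k hk a ha
        refine ⟨⁅(⟨k, hKN hk⟩ : M), (⟨a, hAN ha⟩ : M)⁆, ?_, rfl⟩
        rw [SetLike.mem_coe, Subgroup.mem_comap, map_commutatorElement]
        exact Subgroup.commutator_mem_commutator ⟨_, Subgroup.mem_subgroupOf.mpr hk, rfl⟩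
          ⟨_, Subgroup.mem_subgroupOf.mpr ha, rfl⟩
      obtain ⟨m, hm, hme⟩ := hle hx
      have : m = ⟨x, hxM⟩ := Subtype.ext hme
      rw [← this]
      exact hm
  rw [hbot, Subgroup.mem_bot, hπ] at hmem
  exact hmem

/-- The action is linear over `ZMod r`. -/
theorem exists_linear_act {V : Type*} [AddCommGroup V] [DistribMulAction H V] (r : ℕ) [Fact r.Prime]
    (Vexp : ∀ v : V, r • v = 0) :
    ∃ (_ : Module (ZMod r) V) (ρ : H →* Module.End (ZMod r) V), ∀ g v, ρ g v = g • v := by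
  letI inst : Module (ZMod r) V := AddCommGroup.zmodModule Vexp
  obtain ⟨ρ, hρ⟩ := Cfsg.Agent.Lib.HallHigman.Section.exists_linear_of_additive (p := r) (G := H) (V := V)
    (fun g => DistribSMul.toAddMonoidHom V g) (by
      ext v
      simp) (by
      intro g k
      ext v
      simp [mul_smul])
  exact ⟨inst, ρ, fun g v => by simpa using hρ g v⟩

omit [Finite H] in
/-- `(xy)^k = x^k y^k m` modulo `N`. -/
theorem mul_pow_mod (T N : Subgroup H) (hNT : N ≤ T) (hn : ∀ t ∈ T, ∀ n ∈ N, t * n * t⁻¹ ∈ N)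
    (hcomm : ∀ a ∈ T, ∀ b ∈ T, a * b * a⁻¹ * b⁻¹ ∈ N) {x y : H} (hx : x ∈ T) (hy : y ∈ T) (k : ℕ) :
    ∃ m ∈ N, (x * y) ^ k = x ^ k * y ^ k * m := by
  induction k with
  | zero => exact ⟨1, N.one_mem, by simp⟩
  | succ k ih =>
    obtain ⟨m, hm, e⟩ := ih
    have h1 : (y ^ k)⁻¹ * x⁻¹ * y ^ k * x ∈ N := by
      have := hcomm _ (T.inv_mem (T.pow_mem hy k)) _ (T.inv_mem hx)
      simpa using this
    have h2 : x⁻¹ * m * x ∈ N := by
      have := hn _ (T.inv_mem hx) _ hm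
      simpa using this
    have h3 := hn _ (T.inv_mem hy) _ (N.mul_mem h1 h2)
    refine ⟨_, h3, ?_⟩
    rw [pow_succ, e, pow_succ, pow_succ]
    generalize x ^ k = X
    generalize hY : y ^ k = Y at *
    group

end Gen

variable {H : Type*} [Group H] [Finite H]
variable (V : Type*) [AddCommGroup V] [Finite V] [DistribMulAction H V]

/-- The minimal situation. -/
structure MinData (r u q : ℕ) (T P : Subgroup H) (c : H) : Prop where
  rprime : r.Prime
  uprime : u.Prime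
  qprime : q.Prime
  ur : u ≠ r
  qr : q ≠ r
  uq : u ≠ q
  Vexp : ∀ v : V, r • v = 0
  Vcard : ∃ k, Nat.card V = r ^ k
  Tp : IsPGroup u T
  ord : orderOf c = q
  cT : c ∈ Subgroup.normalizer (T : Set H)
  cP : c ∈ Subgroup.normalizer (P : Set H)
  PT : P ≤ Subgroup.normalizer (T : Set H)
  Pu : (Nat.card P).Coprime u
  Pq : (Nat.card P).Coprime q
  Pnil : Group.IsNilpotent P
  cfree : ∀ g ∈ P, c * g * c⁻¹ = g → g = 1
  Tf : ∀ g ∈ T, (∀ v : V, g • v = v) → g = 1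
  cV : ∀ v : V, c • v = v → v = 0
  nc : ¬ T ≤ Subgroup.centralizer (P : Set H)
  min : ∀ T' : Subgroup H, T' ≤ T → c ∈ Subgroup.normalizer (T' : Set H) →
    P ≤ Subgroup.normalizer (T' : Set H) → ¬ T' ≤ Subgroup.centralizer (P : Set H) → T' = T

variable {V}

/-- The fixed points of `P` on `T`. -/
def Zt (T P : Subgroup H) : Subgroup H := T ⊓ Subgroup.centralizer (P : Set H)

omit [Finite H] in
theorem mem_Zt {T P : Subgroup H} {z : H} : z ∈ Zt T P ↔ z ∈ T ∧ ∀ g ∈ P, g * z = z * g := by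
  unfold Zt
  rw [Subgroup.mem_inf, Subgroup.mem_centralizer_iff]
  rfl

namespace MinData

variable {r u q : ℕ} {T P : Subgroup H} {c : H} (h : MinData V r u q T P c)
include h

theorem fact_u : Fact u.Prime := ⟨h.uprime⟩
theorem fact_q : Fact q.Prime := ⟨h.qprime⟩
theorem fact_r : Fact r.Prime := ⟨h.rprime⟩

theorem cop : (Nat.card P).Coprime (Nat.card T) := by
  haveI := h.fact_u
  obtain ⟨k, hk⟩ := IsPGroup.iff_card.mp h.Tp
  rw [hk]
  exact Nat.Coprime.pow_right k h.Pu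

theorem nilT : Group.IsNilpotent T := by
  haveI := h.fact_u
  exact h.Tp.isNilpotent

theorem solvT : Group.IsSolvable T := by
  haveI := h.nilT
  infer_instance

theorem solvLe {K : Subgroup H} (hK : K ≤ T) : Group.IsSolvable K := by
  haveI := h.solvT
  exact Group.isSolvable_of_isSolvable_injective (Subgroup.inclusion_injective hK)

theorem c1 : c ≠ 1 := by
  rintro rfl
  have := h.ord
  rw [orderOf_one] at this
  exact h.qprime.one_lt.ne this

theorem cN {K L : Subgroup H} (h1 : c ∈ Subgroup.normalizer (K : Set H))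
    (h2 : c ∈ Subgroup.normalizer (L : Set H)) : c ∈ Subgroup.normalizer ((⁅K, L⁆ : Subgroup H) : Set H) :=
  le_normalizer_commutator_of_le (T := Subgroup.zpowers c) ((Subgroup.zpowers_le).mpr h1)
    ((Subgroup.zpowers_le).mpr h2) (Subgroup.mem_zpowers c)

/-- `[T, P] = T`. -/
theorem comm_eq : ⁅T, P⁆ = T := by
  apply h.min _ (commutator_le_of_le_normalizer h.PT) (h.cN h.cT h.cP)
    (le_normalizer_commutator_right T P)
  intro hle
  apply h.nc
  have h1 : ⁅⁅T, P⁆, P⁆ = ⊥ := Subgroup.commutator_eq_bot_iff_le_centralizer.mpr hle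
  have h2 := commutator_commutator_eq h.PT h.cop (Or.inr h.solvT)
  rw [h1] at h2
  exact Subgroup.commutator_eq_bot_iff_le_centralizer.mp h2.symm

/-- Every proper invariant subgroup is centralized by `P`. -/
theorem proper {T' : Subgroup H} (h1 : T' ≤ T) (h2 : c ∈ Subgroup.normalizer (T' : Set H))
    (h3 : P ≤ Subgroup.normalizer (T' : Set H)) (h4 : T' ≠ T) : T' ≤ Zt T P := by
  refine le_inf h1 ?_
  by_contra hcon
  exact h4 (h.min T' h1 h2 h3 hcon)

theorem Zt_ne : Zt T P ≠ T := by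
  intro he
  apply h.nc
  have h1 : T ≤ Zt T P := by rw [he]
  exact h1.trans inf_le_right

theorem cZ : c ∈ Subgroup.normalizer ((Zt T P : Subgroup H) : Set H) := by
  apply IsF.mem_normalizer_of_conj
  intro z hz
  obtain ⟨hz1, hz2⟩ := mem_Zt.mp hz
  refine mem_Zt.mpr ⟨nconj h.cT hz1, fun g hg => ?_⟩
  have h1 : c⁻¹ * g * c ∈ P := by
    have := nconj (Subgroup.inv_mem _ h.cP) hg
    simpa using this
  have h2 := hz2 _ h1
  calc g * (c * z * c⁻¹) = c * ((c⁻¹ * g * c) * z) * c⁻¹ := by group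
    _ = c * (z * (c⁻¹ * g * c)) * c⁻¹ := by rw [h2]
    _ = c * z * c⁻¹ * g := by group

theorem PZ : P ≤ Subgroup.normalizer ((Zt T P : Subgroup H) : Set H) := by
  intro g hg
  apply IsF.mem_normalizer_of_conj
  intro z hz
  have h1 := (mem_Zt.mp hz).2 g hg
  rw [h1]
  simpa using hz

theorem T_ne_bot : T ≠ ⊥ := by
  rintro rfl
  exact h.nc bot_le

theorem comm_le : ⁅T, T⁆ ≤ Zt T P := by
  haveI := h.solvT
  exact h.proper (Subgroup.commutator_le_self T) (h.cN h.cT h.cT)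
    (le_normalizer_commutator_of_le h.PT h.PT) (comm_ne_self T h.T_ne_bot)

theorem Zt_le : Zt T P ≤ T := inf_le_left

theorem T_Zt : T ≤ Subgroup.normalizer ((Zt T P : Subgroup H) : Set H) := by
  intro t ht
  apply IsF.mem_normalizer_of_conj
  intro z hz
  have h1 : t * z * t⁻¹ * z⁻¹ ∈ Zt T P :=
    h.comm_le (Subgroup.commutator_mem_commutator ht (h.Zt_le hz))
  have h2 := (Zt T P).mul_mem h1 hz
  simpa using h2

/-- The powers. -/
theorem pow_mem {y : H} (hy : y ∈ T) : y ^ u ∈ Zt T P := by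
  let T₄ : Subgroup H :=
    { carrier := {y | y ∈ T ∧ y ^ u ∈ Zt T P}
      mul_mem' := by
        rintro x y ⟨hx1, hx2⟩ ⟨hy1, hy2⟩
        refine ⟨T.mul_mem hx1 hy1, ?_⟩
        obtain ⟨m, hm, e⟩ := mul_pow_mod T (Zt T P) h.Zt_le (fun t ht n hn => nconj (h.T_Zt ht) hn)
          (fun a ha b hb => h.comm_le (Subgroup.commutator_mem_commutator ha hb)) hx1 hy1 u
        rw [e]
        exact (Zt T P).mul_mem ((Zt T P).mul_mem hx2 hy2) hm
      one_mem' := ⟨T.one_mem, by simp [Subgroup.one_mem]⟩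
      inv_mem' := by
        rintro x ⟨hx1, hx2⟩
        exact ⟨T.inv_mem hx1, by rw [inv_pow]; exact (Zt T P).inv_mem hx2⟩ }
  by_cases he : T₄ = T
  · have : y ∈ T₄ := by rw [he]; exact hy
    exact this.2
  exfalso
  have hT₄T : T₄ ≤ T := fun x hx => hx.1
  have hle : T₄ ≤ Zt T P := by
    apply h.proper hT₄T ?_ ?_ he
    · apply IsF.mem_normalizer_of_conj
      rintro x ⟨hx1, hx2⟩
      refine ⟨nconj h.cT hx1, ?_⟩
      rw [conj_pow]
      exact nconj h.cZ hx2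
    · intro g hg
      apply IsF.mem_normalizer_of_conj
      rintro x ⟨hx1, hx2⟩
      refine ⟨nconj (h.PT hg) hx1, ?_⟩
      rw [conj_pow]
      exact nconj (h.PZ hg) hx2
  have key : ∀ k : ℕ, ∀ y ∈ T, y ^ (u ^ k) ∈ Zt T P → y ∈ Zt T P := by
    intro k
    induction k with
    | zero =>
      intro y _ hy
      simpa using hy
    | succ k ih =>
      intro y hy hyk
      apply ih y hy
      apply hle
      refine ⟨T.pow_mem hy _, ?_⟩
      rw [← pow_mul, ← pow_succ]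
      exact hyk
  apply h.Zt_ne
  apply le_antisymm h.Zt_le
  intro y hy
  obtain ⟨k, hk⟩ := h.Tp ⟨y, hy⟩
  have h1 : y ^ (u ^ k) = 1 := congrArg Subtype.val hk
  apply key k y hy
  rw [h1]
  exact Subgroup.one_mem _

/-- `Z_t` is central in `T`. -/
theorem central {z y : H} (hz : z ∈ Zt T P) (hy : y ∈ T) : y * z = z * y := by
  have hle : T ≤ Subgroup.centralizer ({z} : Set H) := by
    conv_lhs => rw [← h.comm_eq]
    rw [Subgroup.commutator_le]
    intro y hy g hg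
    have hy' : y⁻¹ ∈ T := T.inv_mem hy
    have h1 : y⁻¹ * z * y⁻¹⁻¹ ∈ Zt T P := nconj (h.T_Zt hy') hz
    have h2 := (mem_Zt.mp h1).2 g hg
    have h3 := (mem_Zt.mp hz).2 g hg
    rw [Subgroup.mem_centralizer_singleton_iff, commutatorElement_def]
    have e1 : g * z * g⁻¹ = z := by rw [h3]; group
    have e2 : (g * y⁻¹ * g⁻¹) * z * (g * y⁻¹ * g⁻¹)⁻¹ = y⁻¹ * z * y := by
      have h4 : (g * y⁻¹ * g⁻¹) * z * (g * y⁻¹ * g⁻¹)⁻¹ = g * (y⁻¹ * (g⁻¹ * z * g) * y) * g⁻¹ := by group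
      have h5 : g⁻¹ * z * g = z := by
        calc g⁻¹ * z * g = g⁻¹ * (z * g) := by group
          _ = g⁻¹ * (g * z) := by rw [h3]
          _ = z := by group
      rw [h4, h5]
      have h6 := h2
      simp only [inv_inv] at h6
      rw [show g * (y⁻¹ * z * y) * g⁻¹ = (g * (y⁻¹ * z * y)) * g⁻¹ from rfl, h6]
      group
    have e3 : (y * g * y⁻¹ * g⁻¹) * z * (y * g * y⁻¹ * g⁻¹)⁻¹ = z := by
      have : y * g * y⁻¹ * g⁻¹ = y * (g * y⁻¹ * g⁻¹) := by group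
      rw [this]
      calc y * (g * y⁻¹ * g⁻¹) * z * (y * (g * y⁻¹ * g⁻¹))⁻¹
          = y * ((g * y⁻¹ * g⁻¹) * z * (g * y⁻¹ * g⁻¹)⁻¹) * y⁻¹ := by group
        _ = y * (y⁻¹ * z * y) * y⁻¹ := by rw [e2]
        _ = z := by group
    calc (y * g * y⁻¹ * g⁻¹) * z = ((y * g * y⁻¹ * g⁻¹) * z * (y * g * y⁻¹ * g⁻¹)⁻¹) * (y * g * y⁻¹ * g⁻¹) := by group
      _ = z * (y * g * y⁻¹ * g⁻¹) := by rw [e3]
  exact Subgroup.mem_centralizer_singleton_iff.mp (hle hy)

/-- `c` does not centralize `T`. -/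
theorem Tnc : ¬ T ≤ Subgroup.centralizer (Subgroup.zpowers c : Set H) := by
  intro hle
  apply h.nc
  have hc : ∀ y ∈ T, c * y = y * c := by
    intro y hy
    exact (Subgroup.mem_centralizer_iff.mp (hle hy) c (Subgroup.mem_zpowers c))
  intro y hy
  rw [Subgroup.mem_centralizer_iff]
  intro g hg
  obtain ⟨m, hm, rfl⟩ := tau_surj P (f := c) (fun k hk => nconj h.cP hk) h.cfree hg
  have hmy : m * y * m⁻¹ ∈ T := nconj (h.PT hm) hy
  have h1 := hc _ hmy
  have h2 := hc y hy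
  have e1 : c⁻¹ * y * c = y := by rw [mul_assoc, ← h2]; group
  have e2 : c * (m * y * m⁻¹) * c⁻¹ = m * y * m⁻¹ := by rw [h1]; group
  have e3 : (m⁻¹ * (c * m * c⁻¹)) * y * (m⁻¹ * (c * m * c⁻¹))⁻¹ = y := by
    calc (m⁻¹ * (c * m * c⁻¹)) * y * (m⁻¹ * (c * m * c⁻¹))⁻¹
        = m⁻¹ * c * m * (c⁻¹ * y * c) * m⁻¹ * c⁻¹ * m := by group
      _ = m⁻¹ * (c * (m * y * m⁻¹) * c⁻¹) * m := by rw [e1]; group
      _ = y := by rw [e2]; group
  calc (m⁻¹ * (c * m * c⁻¹)) * y = ((m⁻¹ * (c * m * c⁻¹)) * y * (m⁻¹ * (c * m * c⁻¹))⁻¹) * (m⁻¹ * (c * m * c⁻¹)) := by group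
    _ = y * (m⁻¹ * (c * m * c⁻¹)) := by rw [e3]

theorem u_cast : (u : ZMod r) ≠ 0 := by
  intro h0
  rw [ZMod.natCast_eq_zero_iff] at h0
  exact h.ur ((Nat.prime_dvd_prime_iff_eq h.rprime h.uprime).mp h0).symm

theorem q_cast : (q : ZMod r) ≠ 0 := by
  intro h0
  rw [ZMod.natCast_eq_zero_iff] at h0
  exact h.qr ((Nat.prime_dvd_prime_iff_eq h.rprime h.qprime).mp h0).symm

/-- The Hall-Higman alternative for any invariant subgroup. -/
theorem exc {Q : Subgroup H} (hQT : Q ≤ T) (hcQ : c ∈ Subgroup.normalizer (Q : Set H))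
    (hne : ¬ Q ≤ Subgroup.centralizer (Subgroup.zpowers c : Set H)) :
    ∃ m : ℕ, 1 ≤ m ∧ q = u ^ m + 1 ∧ ¬ IsMulCommutative Q := by
  haveI := h.fact_u
  haveI := h.fact_q
  haveI := h.fact_r
  obtain ⟨inst, ρ, hρ⟩ := exists_linear_act (H := H) (V := V) r h.Vexp
  haveI : Module.Finite (ZMod r) V := Module.Finite.of_finite
  exact Cfsg.Agent.Lib.HallHigman.Semisimple.fixed_or_exc (F := ZMod r) (W := V) (H := H) (q := u)
    (r := q) h.u_cast h.q_cast h.uq ρ Q (h.Tp.to_le hQT) c hcQ h.ord hne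
    (fun g hg hg1 => h.Tf g (hQT hg) (fun v => by rw [← hρ, hg1]; rfl))
    (fun v hv => h.cV v (by rw [← hρ]; exact hv))

theorem exc_T : ∃ m : ℕ, 1 ≤ m ∧ q = u ^ m + 1 ∧ ¬ IsMulCommutative T :=
  h.exc le_rfl h.cT h.Tnc

theorem u_eq : u = 2 := by
  obtain ⟨m, hm, hq, -⟩ := h.exc_T
  exact Cfsg.Agent.Lib.HallHigman.FixedPoints.eq_two_of_eq_pow_add_one h.uprime h.qprime hm hq

/-- `Z_t` is abelian. -/
theorem Zt_ab {x y : H} (hx : x ∈ Zt T P) (hy : y ∈ Zt T P) : x * y = y * x :=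
  (h.central hy (h.Zt_le hx))

/-- `c` centralizes `Z_t`. -/
theorem c_Zt {z : H} (hz : z ∈ Zt T P) : c * z = z * c := by
  by_contra hcon
  obtain ⟨m, -, -, hna⟩ := h.exc h.Zt_le h.cZ (by
    intro hle
    exact hcon (Subgroup.mem_centralizer_iff.mp (hle hz) c (Subgroup.mem_zpowers c)))
  exact hna ⟨⟨fun a b => Subtype.ext (h.Zt_ab a.2 b.2)⟩⟩

/-- `Z_t = [T, T]`. -/
theorem Zt_eq : Zt T P = ⁅T, T⁆ := by
  apply le_antisymm _ h.comm_le
  intro x hx
  obtain ⟨hx1, hx2⟩ := mem_Zt.mp hx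
  refine mem_of_fixed_mod T P ⁅T, T⁆ (Subgroup.commutator_le_self T) (le_normalizer_commutator_left T T)
    (le_normalizer_commutator_of_le h.PT h.PT) h.PT le_rfl h.cop ?_ ?_
  · rw [h.comm_eq]
    exact hx1
  · intro a ha
    rw [hx2 a ha]
    simp [Subgroup.one_mem]

omit h in
/-- `[x^n, y]`. -/
theorem conj_pow_of_comm {x y z : H} (hz : x * y * x⁻¹ = z * y) (hzx : z * x = x * z)
    (hzy : z * y = y * z) (n : ℕ) : x ^ n * y * (x ^ n)⁻¹ = z ^ n * y := by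
  induction n with
  | zero => simp
  | succ n ih =>
    have e : x ^ (n + 1) * y * (x ^ (n + 1))⁻¹ = x * (x ^ n * y * (x ^ n)⁻¹) * x⁻¹ := by
      rw [pow_succ']; group
    have e2 : x * (z ^ n * y) * x⁻¹ = z ^ n * (x * y * x⁻¹) := by
      have h1 : Commute z x := hzx
      have h2 : x * z ^ n = z ^ n * x := ((h1.pow_left n).eq).symm
      calc x * (z ^ n * y) * x⁻¹ = (x * z ^ n) * y * x⁻¹ := by group
        _ = (z ^ n * x) * y * x⁻¹ := by rw [h2]
        _ = z ^ n * (x * y * x⁻¹) := by group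
    rw [e, ih, e2, hz, pow_succ]
    group

/-- `Z_t` has exponent `u`. -/
theorem Zexp {z : H} (hz : z ∈ Zt T P) : z ^ u = 1 := by
  let S : Subgroup H :=
    { carrier := {z | z ∈ Zt T P ∧ z ^ u = 1}
      mul_mem' := by
        rintro a b ⟨h1, h2⟩ ⟨k1, k2⟩
        refine ⟨(Zt T P).mul_mem h1 k1, ?_⟩
        have hc : Commute a b := h.Zt_ab h1 k1
        rw [hc.mul_pow, h2, k2, one_mul]
      one_mem' := ⟨Subgroup.one_mem _, one_pow u⟩
      inv_mem' := by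
        rintro a ⟨h1, h2⟩
        exact ⟨Subgroup.inv_mem _ h1, by rw [inv_pow, h2, inv_one]⟩ }
  have hle : ⁅T, T⁆ ≤ S := by
    rw [Subgroup.commutator_le]
    intro x hx y hy
    have hz' : ⁅x, y⁆ ∈ Zt T P := h.comm_le (Subgroup.commutator_mem_commutator hx hy)
    refine ⟨hz', ?_⟩
    have h1 : x * y * x⁻¹ = ⁅x, y⁆ * y := by
      rw [commutatorElement_def]; group
    have h2 := conj_pow_of_comm h1 (h.central hz' hx).symm (h.central hz' hy).symm u
    have h3 : x ^ u * y * (x ^ u)⁻¹ = y := by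
      rw [(h.central (h.pow_mem hx) hy).symm]
      group
    rw [h3] at h2
    exact (mul_eq_right.mp h2.symm)
  rw [h.Zt_eq] at hz
  exact (hle hz).2

/-- There is a nontrivial element in `Z_t`. -/
theorem exists_ne : ∃ y ∈ Zt T P, y ≠ 1 := by
  obtain ⟨m, -, -, hna⟩ := h.exc_T
  by_contra hcon
  push Not at hcon
  apply hna
  refine ⟨⟨fun a b => Subtype.ext ?_⟩⟩
  have h1 := hcon _ (h.comm_le (Subgroup.commutator_mem_commutator a.2 b.2))
  exact commutatorElement_eq_one_iff_mul_comm.mp h1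

theorem u_cop : u.Coprime (Nat.card V) := by
  obtain ⟨k, hk⟩ := h.Vcard
  rw [hk]
  exact Nat.Coprime.pow_right k ((Nat.coprime_primes h.uprime h.rprime).mpr h.ur)

theorem q_cop : q.Coprime (Nat.card V) := by
  obtain ⟨k, hk⟩ := h.Vcard
  rw [hk]
  exact Nat.Coprime.pow_right k ((Nat.coprime_primes h.qprime h.rprime).mpr h.qr)

/-- A hyperplane of `Z_t` not containing `y`. -/
theorem exists_hyp {y : H} (hy : y ∈ Zt T P) (hy1 : y ≠ 1) :
    ∃ L : Subgroup H, L ≤ Zt T P ∧ y ∉ L ∧ (∃ v : V, (∀ l ∈ L, l • v = v) ∧ y • v ≠ v) ∧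
      ∀ t ∈ Zt T P, ∃ l ∈ L, ∃ n : ℤ, t = l * y ^ n := by
  classical
  set Z := Zt T P with hZ
  obtain ⟨w₀, hyw⟩ : ∃ w₀ : V, y • w₀ ≠ w₀ := by
    by_contra hcon
    push Not at hcon
    exact hy1 (h.Tf y (h.Zt_le hy) hcon)
  let F : Set (Subgroup H) := {L | L ≤ Z ∧ ∃ u : V, (∀ l ∈ L, l • u = u) ∧ y • u ≠ u}
  have hF : F.Finite := Set.toFinite F
  have hne : F.Nonempty := ⟨⊥, bot_le, w₀, fun l hl => by
    rw [Subgroup.mem_bot.mp hl, one_smul], hyw⟩
  obtain ⟨L, hLmax⟩ := hF.exists_maximal hne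
  obtain ⟨hLZ, v₁, huL, hyu⟩ := hLmax.prop
  have hLmax' : ∀ M, M ∈ F → L ≤ M → M ≤ L := fun M hM hle => hLmax.le_of_ge hM hle
  have hZv : ∀ v : V, (∀ l ∈ L, l • v = v) → y • v ≠ v → ∀ t ∈ Z, t • v = v → t ∈ L := by
    intro v hvL hyv t ht htv
    let M : Subgroup H := Z ⊓ MulAction.stabilizer H v
    have hM : M ∈ F := ⟨inf_le_left, v, fun l hl =>
      MulAction.mem_stabilizer_iff.mp (Subgroup.mem_inf.mp hl).2, hyv⟩
    have hLM : L ≤ M := fun l hl =>
      Subgroup.mem_inf.mpr ⟨hLZ hl, MulAction.mem_stabilizer_iff.mpr (hvL l hl)⟩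
    exact hLmax' M hM hLM (Subgroup.mem_inf.mpr ⟨ht, MulAction.mem_stabilizer_iff.mpr htv⟩)
  have hyL : y ∉ L := fun hl => hyu (huL y hl)
  have hA : ∀ t ∈ Z, ∃ l ∈ L, ∃ n : ℤ, t = l * y ^ n := by
    intro t ht
    by_contra hcon
    push Not at hcon
    have hstab : ∀ x ∈ Z, ∀ v ∈ fixS V L, x • v ∈ fixS V L := by
      intro x hx v h2 l hl
      rw [← mul_smul, h.Zt_ab (hLZ hl) hx, mul_smul, h2 l hl]
    obtain ⟨j, v, hv2, hv3, hv4⟩ := exists_fixed_of_pair (fixS V L) h.uprime h.u_cop (hstab t ht)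
      (hstab y hy) (fun v _ => by rw [h.Zexp ht, one_smul]) (fun v _ => by rw [h.Zexp hy, one_smul])
      (fun v _ => by rw [h.Zt_ab ht hy]) (show v₁ ∈ fixS V L from huL) hyu
    have h1 := hZv v hv2 hv4 _ (Z.mul_mem ht (Z.pow_mem hy j)) hv3
    apply hcon _ h1 (-(j : ℤ))
    simp
  exact ⟨L, hLZ, hyL, ⟨v₁, huL, hyu⟩, hA⟩

end MinData

end Cfsg.Agent.Lib.FrobAct.LMin
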