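import Cfsg.Agent.Lib.FrobAct.Irr

/-!
# The section `Y` on which an element outside `⟨a⟩` has no fixed points
-/

set_option autoImplicit false

namespace Cfsg.Agent.Lib.FrobAct.Sec

open Cfsg Cfsg.Agent.Lib.Core.Basic Cfsg.Agent.Lib.FPFThompson.Main
open Cfsg.Agent.Lib.Ward.Norm Cfsg.Agent.Lib.Ward.Setup Cfsg.Agent.Lib.Ward.Elem
open Cfsg.Agent.Lib.FrobAct.Basic Cfsg.Agent.Lib.FrobAct.Weights Cfsg.Agent.Lib.FrobAct.Irr
open Cfsg.Agent.Lib.Coprime.Action
open scoped commutatorElement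

/-- If `(yx)² = x²y²` in a group of order prime to `6`, the group is abelian. -/
theorem comm_of_sq {G : Type*} [Group G] [Finite G] (hcop : (Nat.card G).Coprime 6)
    (h : ∀ x y : G, (y * x) ^ 2 = x ^ 2 * y ^ 2) (x y : G) : x * y = y * x := by
  have h4 : ∀ x y : G, (x * y) ^ 4 = x ^ 4 * y ^ 4 := by
    intro x y
    have e : (x * y) ^ 4 = ((x * y) ^ 2) ^ 2 := by rw [← pow_mul]
    rw [e, h y x, h (x ^ 2) (y ^ 2), ← pow_mul, ← pow_mul]
  have h3 : ∀ x y : G, (y * x) ^ 3 = x ^ 3 * y ^ 3 := by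
    intro x y
    have e1 : (x * y) ^ 4 = x * (y * x) ^ 3 * y := by
      simp only [pow_succ, pow_zero, one_mul, mul_assoc]
    have e2 : x ^ 4 * y ^ 4 = x * (x ^ 3 * y ^ 3) * y := by
      simp only [pow_succ, pow_zero, one_mul, mul_assoc]
    have e3 := h4 x y
    rw [e1, e2] at e3
    exact mul_left_cancel (mul_right_cancel e3)
  have hc : ∀ x y : G, x ^ 3 * y ^ 4 = y ^ 4 * x ^ 3 := by
    intro x y
    have e1 : (y * x) ^ 4 = x ^ 3 * y ^ 4 * x := by
      have : (y * x) ^ 4 = (y * x) ^ 3 * (y * x) := pow_succ _ 3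
      rw [this, h3 x y]
      simp only [pow_succ, pow_zero, one_mul, mul_assoc]
    have e2 : (y * x) ^ 4 = y ^ 4 * x ^ 3 * x := by
      rw [h4 y x]
      simp only [pow_succ, pow_zero, one_mul, mul_assoc]
    exact mul_right_cancel (e1.symm.trans e2)
  have hc3 : (Nat.card G).Coprime 3 := Nat.Coprime.coprime_dvd_right (by norm_num) hcop
  have hc4 : (Nat.card G).Coprime 4 := by
    have : (Nat.card G).Coprime 2 := Nat.Coprime.coprime_dvd_right (by norm_num) hcop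
    exact Nat.Coprime.pow_right 2 this
  obtain ⟨x', rfl⟩ := (powCoprime hc3).surjective x
  obtain ⟨y', rfl⟩ := (powCoprime hc4).surjective y
  exact hc x' y'

variable {Γ : Type*} [Group Γ] [Finite Γ]
variable (V : Type*) [AddCommGroup V] [Finite V] [DistribMulAction Γ V]

/-- The section. -/
structure Sec (r p q : ℕ) (A : Subgroup Γ) (a : Γ) (X : Subgroup Γ) (c : Γ) (Y : AddSubgroup V) : Prop where
  I : Irr V r p q A a X
  cA : c ∈ A
  ca : c ∉ Subgroup.zpowers a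
  YX : ∀ x ∈ X, ∀ y ∈ Y, x • y ∈ Y
  Yc : ∀ y ∈ Y, c • y ∈ Y
  Yfree : ∀ y ∈ Y, c • y = y → y = 0
  Yne : Y ≠ ⊥

variable {V}

namespace Sec

variable {r p q : ℕ} {A : Subgroup Γ} {a : Γ} {X : Subgroup Γ} {c : Γ} {Y : AddSubgroup V}
  (h : Sec V r p q A a X c Y)
include h

theorem c1 : c ≠ 1 := fun h1 => h.ca (by rw [h1]; exact Subgroup.one_mem _)

/-- The `A`-translates of `Y` span `V`. -/
theorem span_top : AddSubgroup.closure {w : V | ∃ b ∈ A, ∃ y ∈ Y, w = b • y} = ⊤ := by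
  apply h.I.irr
  · intro x hx w hw
    induction hw using AddSubgroup.closure_induction with
    | mem w hw =>
      obtain ⟨b, hb, y, hy, rfl⟩ := hw
      apply AddSubgroup.subset_closure
      refine ⟨b, hb, (b⁻¹ * x * b) • y, ?_, ?_⟩
      · exact h.YX _ (h.I.conjX' b hx) y hy
      · rw [← mul_smul, ← mul_smul]
        congr 1
        group
    | zero =>
      rw [smul_zero]
      exact AddSubgroup.zero_mem _
    | add u v _ _ hu hv =>
      rw [smul_add]
      exact AddSubgroup.add_mem _ hu hv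
    | neg u _ hu =>
      rw [smul_neg]
      exact AddSubgroup.neg_mem _ hu
  · intro b' hb' w hw
    induction hw using AddSubgroup.closure_induction with
    | mem w hw =>
      obtain ⟨b, hb, y, hy, rfl⟩ := hw
      apply AddSubgroup.subset_closure
      exact ⟨b' * b, A.mul_mem hb' hb, y, hy, (mul_smul _ _ _).symm⟩
    | zero =>
      rw [smul_zero]
      exact AddSubgroup.zero_mem _
    | add u v _ _ hu hv =>
      rw [smul_add]
      exact AddSubgroup.add_mem _ hu hv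
    | neg u _ hu =>
      rw [smul_neg]
      exact AddSubgroup.neg_mem _ hu
  · intro hbot
    apply h.Yne
    rw [eq_bot_iff]
    intro y hy
    have h1 : y ∈ AddSubgroup.closure {w : V | ∃ b ∈ A, ∃ y ∈ Y, w = b • y} :=
      AddSubgroup.subset_closure ⟨1, A.one_mem, y, hy, (one_smul _ _).symm⟩
    rw [hbot] at h1
    exact h1

theorem pow_smul_mem (n : ℕ) {y : V} (hy : y ∈ Y) : c ^ n • y ∈ Y := by
  induction n with
  | zero => simpa using hy
  | succ n ih =>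
    rw [pow_succ', mul_smul]
    exact h.Yc _ ih

/-- A subgroup normalized by `a` and fixing `Y` fixes `V`. -/
theorem fix_all (S : Subgroup Γ) (hSa : a ∈ Subgroup.normalizer (S : Set Γ))
    (hfix : ∀ g ∈ S, ∀ y ∈ Y, g • y = y) {g : Γ} (hg : g ∈ S) (v : V) : g • v = v := by
  have hle : AddSubgroup.closure {w : V | ∃ b ∈ A, ∃ y ∈ Y, w = b • y} ≤ fixS V S := by
    rw [AddSubgroup.closure_le]
    rintro _ ⟨b, hb, y, hy, rfl⟩ g' hg'
    obtain ⟨i, d, hd, rfl⟩ := h.I.F.eq_zpow_mul h.cA h.ca hb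
    obtain ⟨n, rfl⟩ := (mem_powers_iff_mem_zpowers).mpr hd
    have hy' : c ^ n • y ∈ Y := h.pow_smul_mem n hy
    have h1 : (a ^ i)⁻¹ * g' * a ^ i ∈ S := by
      have h2 := (Subgroup.mem_normalizer_iff.mp
        (Subgroup.inv_mem _ (Subgroup.zpow_mem _ hSa i)) g').mp hg'
      simpa using h2
    have e : g' • (a ^ i * (fun x => c ^ x) n) • y = a ^ i • (((a ^ i)⁻¹ * g' * a ^ i) • (c ^ n • y)) := by
      simp only [mul_smul, smul_inv_smul]
    rw [e, hfix _ h1 _ hy', mul_smul]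
  have hv : v ∈ fixS V S := hle (by rw [h.span_top]; exact AddSubgroup.mem_top v)
  exact hv g hg

/-- `c` normalizes `C_X(a)`. -/
theorem D_conj {b x : Γ} (hb : b ∈ A) (hx : x ∈ cen X a) : b * x * b⁻¹ ∈ cen X a := by
  obtain ⟨hx1, hx2⟩ := mem_cen.mp hx
  refine mem_cen.mpr ⟨h.I.conjX b hx1, ?_⟩
  have h1 : b⁻¹ * a * b ∈ Subgroup.zpowers a := by
    simpa using h.I.F.anorm b⁻¹ (A.inv_mem hb)
  have h2 : (b⁻¹ * a * b) * x = x * (b⁻¹ * a * b) := cen_eq_of_mem h1 hx2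
  calc a * (b * x * b⁻¹) = b * ((b⁻¹ * a * b) * x) * b⁻¹ := by group
    _ = b * (x * (b⁻¹ * a * b)) * b⁻¹ := by rw [h2]
    _ = b * x * b⁻¹ * a := by group

/-- `c` has no fixed points on `C_X(a)`. -/
theorem D_free {x : Γ} (hx : x ∈ cen X a) (hcx : c * x * c⁻¹ = x) : x = 1 := by
  obtain ⟨hx1, hx2⟩ := mem_cen.mp hx
  refine h.I.eq_one_of_comm h.I.F.aA h.cA h.I.F.a1 h.ca hx1 hx2 ?_
  calc c * x = (c * x * c⁻¹) * c := by group
    _ = x * c := by rw [hcx]

/-- A subgroup of `C_X(a)` fixing `Y` is trivial. -/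
theorem D_fix {S : Subgroup Γ} (hS : S ≤ cen X a) (hfix : ∀ g ∈ S, ∀ y ∈ Y, g • y = y) {g : Γ}
    (hg : g ∈ S) : g = 1 := by
  apply h.I.Xf g (mem_cen.mp (hS hg)).1
  apply h.fix_all S _ hfix hg
  apply IsF.mem_normalizer_of_conj
  intro x hx
  have h1 := (mem_cen.mp (hS hx)).2
  rw [h1]
  simpa using hx

/-- **The case `p = 3`, `q = 2`.** -/
theorem abelian_of_two (hq : q = 2) (hp : p = 3) {x₁ x₂ : Γ} (hx₁ : x₁ ∈ X) (hx₂ : x₂ ∈ X) :
    x₁ * x₂ = x₂ * x₁ := by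
  have hF := h.I.F
  have hcA := h.cA
  have hca := h.ca
  have hYX := h.YX
  have hcord : orderOf c = 2 := by rw [hF.orderOf_of_notMem hcA hca, hq]
  have hc2 : c * c = 1 := by
    have := pow_orderOf_eq_one c
    rwa [hcord, sq] at this
  have hcinv : c⁻¹ = c := inv_eq_of_mul_eq_one_left hc2
  have hminus : ∀ y ∈ Y, c • y = -y := by
    intro y hy
    have hw : y + c • y ∈ Y := Y.add_mem hy (h.Yc y hy)
    have hfix : c • (y + c • y) = y + c • y := by
      rw [smul_add, ← mul_smul, hc2, one_smul, add_comm]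
    exact eq_neg_of_add_eq_zero_right (h.Yfree _ hw hfix)
  have hconj : ∀ x ∈ X, ∀ y ∈ Y, (c * x * c⁻¹) • y = x • y := by
    intro x hx y hy
    rw [hcinv, mul_smul, mul_smul, hminus y hy, smul_neg, smul_neg, hminus _ (hYX x hx y hy), neg_neg]
  have hDfix : ∀ g ∈ cen X a, ∀ y ∈ Y, g • y = y := by
    intro g hg y hy
    obtain ⟨m, hm, rfl⟩ := tau_surj (cen X a) (f := c) (fun k hk => h.D_conj hcA hk)
      (fun k hk hkc => h.D_free hk hkc) hg
    rw [mul_smul, hconj m (mem_cen.mp hm).1 y hy, inv_smul_smul]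
  have hD1 : ∀ g ∈ cen X a, g = 1 := fun g hg => h.D_fix le_rfl hDfix hg
  have hafree : ∀ k ∈ X, a * k * a⁻¹ = k → k = 1 := by
    intro k hk hka
    apply hD1 k (mem_cen.mpr ⟨hk, ?_⟩)
    calc a * k = (a * k * a⁻¹) * a := by group
      _ = k * a := by rw [hka]
  have ha3 : a ^ 3 = 1 := by rw [← hp]; exact hF.ap
  have hnorm : ∀ x ∈ X, x * (a * x * a⁻¹) * (a⁻¹ * x * a) = 1 := by
    intro x hx
    obtain ⟨m, -, rfl⟩ := tau_surj X (f := a) (fun k hk => h.I.conjX a hk) hafree hx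
    have e1 : m⁻¹ * (a * m * a⁻¹) * (a * (m⁻¹ * (a * m * a⁻¹)) * a⁻¹) *
        (a⁻¹ * (m⁻¹ * (a * m * a⁻¹)) * a) = m⁻¹ * a * a * m * (a ^ 3)⁻¹ * m⁻¹ * a * m := by
      simp only [pow_succ, pow_zero, one_mul]
      group
    rw [e1, ha3, inv_one, mul_one]
    have e2 : m⁻¹ * a * a * m * m⁻¹ * a * m = m⁻¹ * a ^ 3 * m := by
      simp only [pow_succ, pow_zero, one_mul]
      group
    rw [e2, ha3]
    group
  have hcaa : c * a * c⁻¹ = a⁻¹ := by
    obtain ⟨n, hn⟩ := (mem_powers_iff_mem_zpowers).mpr (hF.anorm c hcA)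
    have hn' : (fun x : ℕ => a ^ x) n = c * a * c⁻¹ := hn
    have hmod : a ^ n = a ^ (n % 3) := pow_eq_pow_mod n ha3
    have hlt : n % 3 < 3 := Nat.mod_lt _ (by norm_num)
    have hval : c * a * c⁻¹ = a ^ (n % 3) := by rw [← hmod]; exact hn'.symm
    have hcases : n % 3 = 0 ∨ n % 3 = 1 ∨ n % 3 = 2 := by omega
    rcases hcases with h0 | h0 | h0
    · rw [h0, pow_zero] at hval
      exfalso
      apply hF.a1
      have e : a = c⁻¹ * (c * a * c⁻¹) * c := by group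
      rw [e, hval]
      group
    · rw [h0, pow_one] at hval
      exfalso
      have hcomm : c * a = a * c := by
        calc c * a = (c * a * c⁻¹) * c := by group
          _ = a * c := by rw [hval]
      have hle := hF.gen (Subgroup.centralizer ({a} : Set Γ)) hF.aA hcA hF.a1 hca
        (Subgroup.mem_centralizer_singleton_iff.mpr rfl)
        (Subgroup.mem_centralizer_singleton_iff.mpr hcomm)
      obtain ⟨b₀, hb₀, hb₀a⟩ := hF.nonab
      exact hb₀a (Subgroup.mem_centralizer_singleton_iff.mp (hle hb₀))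
    · rw [h0] at hval
      rw [hval]
      apply eq_inv_of_mul_eq_one_left
      rw [← pow_succ, ha3]
  haveI := h.I.Xn
  letI act : MulAction X Y :=
    { smul := fun x y => ⟨(x : Γ) • (y : V), hYX x x.2 y y.2⟩
      one_smul := fun y => Subtype.ext (one_smul Γ (y : V))
      mul_smul := fun x z y => Subtype.ext (mul_smul (x : Γ) (z : Γ) (y : V)) }
  let ρ : X →* Equiv.Perm Y := MulAction.toPermHom X Y
  have hρ : ∀ (x : X) (y : Y), ((ρ x y : Y) : V) = (x : Γ) • (y : V) := fun _ _ => rfl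
  let φ : X →* X := (MulAut.conjNormal a : MulAut X).toMonoidHom
  have hφ : ∀ x : X, ((φ x : X) : Γ) = a * x * a⁻¹ := fun x => MulAut.conjNormal_apply a x
  let C : Subgroup X := (Subgroup.centralizer ({c} : Set Γ)).comap X.subtype
  have hCmem : ∀ x : C, c * (x : X) = (x : X) * c := fun x =>
    (Subgroup.mem_centralizer_singleton_iff.mp x.2).symm
  let f : C →* Equiv.Perm Y := (ρ.comp φ).comp C.subtype
  let ρ' : C →* Equiv.Perm Y := ρ.comp C.subtype
  have hf : ∀ (x : C) (y : Y), ((f x y : Y) : V) = (a * ((x : X) : Γ) * a⁻¹) • (y : V) := by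
    intro x y
    show ((ρ (φ x) y : Y) : V) = _
    rw [hρ, hφ]
  have hρ' : ∀ (x : C) (y : Y), ((ρ' x y : Y) : V) = ((x : X) : Γ) • (y : V) := fun _ _ => rfl
  have hrel : ∀ x : C, ρ' x * (f x) ^ 2 = 1 := by
    intro x
    ext y
    set x₀ : Γ := ((x : X) : Γ) with hx₀
    have hx₀X : x₀ ∈ X := (x : X).2
    have hcx : c * x₀ * c⁻¹ = x₀ := by
      rw [show c * x₀ = x₀ * c from hCmem x]; group
    have e1 : c * (a * x₀ * a⁻¹) * c⁻¹ = a⁻¹ * x₀ * a := by
      calc c * (a * x₀ * a⁻¹) * c⁻¹ = (c * a * c⁻¹) * (c * x₀ * c⁻¹) * (c * a * c⁻¹)⁻¹ := by group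
        _ = a⁻¹ * x₀ * a := by rw [hcaa, hcx]; group
    have e2 : ∀ z ∈ Y, (a⁻¹ * x₀ * a) • z = (a * x₀ * a⁻¹) • z := by
      intro z hz
      rw [← e1]
      exact hconj _ (h.I.conjX a hx₀X) z hz
    have h1 := hnorm x₀ hx₀X
    have hy := y.2
    show (((ρ' x * (f x) ^ 2) y : Y) : V) = (y : V)
    rw [Equiv.Perm.mul_apply, hρ', sq, Equiv.Perm.mul_apply, hf, hf]
    rw [← hx₀]
    have e3 : (x₀ * (a * x₀ * a⁻¹) * (a⁻¹ * x₀ * a)) • (y : V) =
        x₀ • (a * x₀ * a⁻¹) • (a⁻¹ * x₀ * a) • (y : V) := by rw [mul_smul, mul_smul]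
    have h2 : x₀ • (a * x₀ * a⁻¹) • (a * x₀ * a⁻¹) • (y : V) = (y : V) := by
      rw [← e2 _ hy, ← e3, h1, one_smul]
    exact h2
  have hρeq : ∀ x : C, ρ' x = ((f x) ^ 2)⁻¹ := fun x => eq_inv_of_mul_eq_one_left (hrel x)
  have hrel2 : ∀ x z : C, (f x * f z) ^ 2 = (f z) ^ 2 * (f x) ^ 2 := by
    intro x z
    have h1 := hrel (x * z)
    rw [map_mul, map_mul, hρeq x, hρeq z] at h1
    have h2 := eq_inv_of_mul_eq_one_right h1
    rw [h2]
    simp
  have hcardA : Nat.card A = 6 := by rw [hF.card, hp, hq]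
  have hIcop : (Nat.card f.range).Coprime 6 := by
    have h1 : Nat.card f.range ∣ Nat.card C := Subgroup.card_range_dvd f
    have h2 : Nat.card C ∣ Nat.card X := Subgroup.card_subgroup_dvd_card C
    have h3 := h.I.AX
    rw [hcardA] at h3
    exact Nat.Coprime.coprime_dvd_left (h1.trans h2) h3.symm
  have hcomm : ∀ x z : C, f x * f z = f z * f x := by
    intro x z
    have h1 := comm_of_sq hIcop (by
      rintro ⟨_, x₀, rfl⟩ ⟨_, y₀, rfl⟩
      apply Subtype.ext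
      exact hrel2 y₀ x₀) ⟨f x, x, rfl⟩ ⟨f z, z, rfl⟩
    exact congrArg Subtype.val h1
  have hcomm2 : ∀ x z : C, ρ' x * ρ' z = ρ' z * ρ' x := by
    intro x z
    rw [hρeq, hρeq]
    have h1 : Commute (f x) (f z) := hcomm x z
    exact ((h1.pow_pow 2 2).inv_inv).eq
  let K₀ : Subgroup Γ := (ρ.ker).map X.subtype
  have hK₀ : ∀ g : Γ, g ∈ K₀ ↔ g ∈ X ∧ ∀ v ∈ Y, g • v = v := by
    intro g
    constructor
    · rintro ⟨x, hx, rfl⟩
      refine ⟨x.2, fun v hv => ?_⟩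
      have h1 : ρ x = 1 := hx
      have h2 := hρ x ⟨v, hv⟩
      rw [h1] at h2
      exact h2.symm
    · rintro ⟨hg, hgv⟩
      refine ⟨⟨g, hg⟩, ?_, rfl⟩
      show ρ ⟨g, hg⟩ = 1
      ext y
      rw [hρ]
      exact hgv _ y.2
  have hK₀X : K₀ ≤ X := Subgroup.map_subtype_le _
  have hKX : X ≤ Subgroup.normalizer (K₀ : Set Γ) := by
    intro g hg
    apply IsF.mem_normalizer_of_conj
    intro k hk
    rw [hK₀] at hk ⊢
    refine ⟨h.I.conjX g hk.1, fun v hv => ?_⟩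
    have h1 := hk.2 (g⁻¹ • v) (hYX _ (X.inv_mem hg) v hv)
    rw [mul_smul, mul_smul, h1, smul_inv_smul]
  have hcK₀ : c ∈ Subgroup.normalizer (K₀ : Set Γ) := by
    apply IsF.mem_normalizer_of_conj
    intro k hk
    rw [hK₀] at hk ⊢
    exact ⟨h.I.conjX c hk.1, fun v hv => by rw [hconj k hk.1 v hv, hk.2 v hv]⟩
  have hcTrv : Subgroup.zpowers c ≤ Trv X K₀ h.I.Xn := by
    rw [Subgroup.zpowers_le]
    intro z hz
    rw [hK₀]
    refine ⟨X.mul_mem (X.inv_mem hz) (h.I.conjX c hz), fun v hv => ?_⟩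
    rw [mul_smul, hconj z hz v hv, inv_smul_smul]
  have hlift : ∀ x ∈ X, ∃ x' : C, ∀ v ∈ Y, x • v = ((x' : X) : Γ) • v := by
    intro x hx
    obtain ⟨c₀, hc₀, hk⟩ := exists_fixed_of_fixed_mod K₀ (A := Subgroup.zpowers c) (K := X)
      (fun b _ => normalizer_of_normal h.I.Xn b)
      (Nat.Coprime.coprime_dvd_left (Subgroup.card_dvd_of_le ((Subgroup.zpowers_le).mpr hcA)) h.I.AX)
      (Or.inr h.I.Xsol) hK₀X hKX ((Subgroup.zpowers_le).mpr hcK₀) hx (fun b hb => by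
        have h1 := hcTrv hb x hx
        have e : b * x * b⁻¹ * x⁻¹ = x * (x⁻¹ * (b * x * b⁻¹)) * x⁻¹ := by group
        rw [e]
        exact (Subgroup.mem_normalizer_iff.mp (hKX hx) _).mp h1)
    have hc₀c : c₀ ∈ Subgroup.centralizer ({c} : Set Γ) := by
      rw [Subgroup.mem_centralizer_singleton_iff]
      exact (Subgroup.mem_centralizer_iff.mp hc₀.2 c (Subgroup.mem_zpowers c)).symm
    refine ⟨⟨⟨c₀, hc₀.1⟩, hc₀c⟩, fun v hv => ?_⟩
    have h1 := ((hK₀ _).mp hk).2 v hv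
    rw [mul_smul, inv_smul_eq_iff] at h1
    exact h1.symm
  have hcm : ∀ x ∈ X, ∀ z ∈ X, ∀ v ∈ Y, (x * z) • v = (z * x) • v := by
    intro x hx z hz v hv
    obtain ⟨x', hx'⟩ := hlift x hx
    obtain ⟨z', hz'⟩ := hlift z hz
    have h1 := congrArg (fun s : Equiv.Perm Y => ((s ⟨v, hv⟩ : Y) : V)) (hcomm2 x' z')
    simp only [Equiv.Perm.mul_apply, hρ'] at h1
    rw [mul_smul, mul_smul, hx' _ (hYX z hz v hv), hz' v hv, hz' _ (hYX x hx v hv), hx' v hv]
    exact h1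
  have hcX : ⁅X, X⁆ ≤ K₀ := by
    rw [Subgroup.commutator_le]
    intro x hx z hz
    rw [hK₀]
    refine ⟨X.mul_mem (X.mul_mem (X.mul_mem hx hz) (X.inv_mem hx)) (X.inv_mem hz), fun v hv => ?_⟩
    rw [commutatorElement_def]
    have e : x * z * x⁻¹ * z⁻¹ = (x * z) * (z * x)⁻¹ := by group
    rw [e, mul_smul, hcm x hx z hz _ (by
      rw [mul_inv_rev, mul_smul]
      exact hYX _ (X.inv_mem hx) _ (hYX _ (X.inv_mem hz) v hv)), smul_inv_smul]
  have hfin : ∀ g ∈ ⁅X, X⁆, ∀ v : V, g • v = v := fun g hg v =>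
    h.fix_all ⁅X, X⁆ (normalizer_of_normal (Subgroup.commutator_normal X X) a)
      (fun g hg v hv => ((hK₀ g).mp (hcX hg)).2 v hv) hg v
  have hone : ⁅x₁, x₂⁆ = 1 := by
    have hg : ⁅x₁, x₂⁆ ∈ ⁅X, X⁆ := Subgroup.commutator_mem_commutator hx₁ hx₂
    exact h.I.Xf _ (hK₀X (hcX hg)) (hfin _ hg)
  exact commutatorElement_eq_one_iff_mul_comm.mp hone

end Sec

section

variable {r p q : ℕ} {A : Subgroup Γ} {a : Γ} {X : Subgroup Γ}

/-- Case II: if `a` does not centralize `Z`, we get a section. -/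
theorem exists_sec (h : Irr V r p q A a X) {u : ℕ} {Z : Subgroup Γ} (hS : Sys V p q u A a X Z) {z : Γ}
    (hz : z ∈ Z) (hna : a * z ≠ z * a) : ∃ c, ∃ Y : AddSubgroup V, Sec V r p q A a X c Y := by
  obtain ⟨c, hc, hca, v, hv, hvY⟩ := hS.dichotomy hz hna
  refine ⟨c, YY V X Z c, h, hc, hca, fun x hx y hy => hS.YY_X hy hx, fun y hy => hS.YY_c hy,
    fun y hy hcy => hS.YY_free hc hca hy hcy, ?_⟩
  intro hbot
  rw [hbot, AddSubgroup.mem_bot] at hvY
  exact hv hvY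

/-- **The case of the symmetric group.** -/
theorem abelian (h : Irr V r 3 2 A a X) {x₁ x₂ : Γ} (hx₁ : x₁ ∈ X) (hx₂ : x₂ ∈ X) :
    x₁ * x₂ = x₂ * x₁ := by
  by_cases hX : X = ⊥
  · rw [hX, Subgroup.mem_bot] at hx₁ hx₂
    rw [hx₁, hx₂]
  obtain ⟨u, Z, hS, -, -⟩ := h.exists_sys hX
  by_cases hac : ∀ z ∈ Z, a * z = z * a
  · have hfree : ∀ v : V, a • v = v → v = 0 := fun v hv => hS.free_of_centralizes hac hv
    have hcen : ∀ x ∈ X, a * x = x * a := fun x hx => h.centralizes_X hfree hx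
    haveI := h.Xn
    have hF := h.F
    obtain ⟨t, ht, hta⟩ := hF.exists_notMem
    have htord : orderOf t = 2 := hF.orderOf_of_notMem ht hta
    have ht2 : t * t = 1 := by
      have := pow_orderOf_eq_one t
      rwa [htord, sq] at this
    have htinv : t⁻¹ = t := inv_eq_of_mul_eq_one_left ht2
    let ψ : MulAut X := MulAut.conjNormal t
    have hψ : ∀ y : X, ((ψ y : X) : Γ) = t * y * t⁻¹ := fun y => MulAut.conjNormal_apply t y
    have hfpf : MonoidHom.FixedPointFree (ψ : X →* X) := by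
      intro y hy
      apply Subtype.ext
      have h1 : t * (y : Γ) * t⁻¹ = y := by
        rw [← hψ]
        exact congrArg Subtype.val hy
      refine h.eq_one_of_comm hF.aA ht hF.a1 hta y.2 (hcen y y.2) ?_
      calc t * (y : Γ) = (t * y * t⁻¹) * t := by group
        _ = y * t := by rw [h1]
    have hinvol : Function.Involutive (ψ : X →* X) := by
      intro y
      apply Subtype.ext
      show ((ψ (ψ y) : X) : Γ) = y
      rw [hψ, hψ, htinv]
      calc t * (t * (y : Γ) * t) * t = (t * t) * y * (t * t) := by group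
        _ = y := by rw [ht2]; group
    have h1 := hfpf.commute_all_of_involutive hinvol ⟨x₁, hx₁⟩ ⟨x₂, hx₂⟩
    exact congrArg Subtype.val h1
  · push Not at hac
    obtain ⟨z, hz, hna⟩ := hac
    obtain ⟨c, Y, hSec⟩ := exists_sec h hS hz hna
    exact hSec.abelian_of_two rfl rfl hx₁ hx₂

end

end Cfsg.Agent.Lib.FrobAct.Sec
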