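import Cfsg.Agent.Lib.FrobAct.Basic
import Cfsg.Agent.Lib.Ward.Elem
import Cfsg.Agent.Lib.Coprime.Abelian

/-!
# Weights of a normal elementary abelian subgroup under a Frobenius group of order `pq`
-/

set_option autoImplicit false

namespace Cfsg.Agent.Lib.FrobAct.Weights

open Cfsg.Agent.Lib.Ward.Norm Cfsg.Agent.Lib.Ward.Setup Cfsg.Agent.Lib.Ward.Elem
open Cfsg.Agent.Lib.FrobAct.Basic Cfsg.Agent.Lib.Coprime.Action
open scoped commutatorElement

variable {Γ : Type*} [Group Γ] [Finite Γ]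

omit [Finite Γ] in
/-- The elements acting trivially on `Z / S`. -/
def Trv (Z S : Subgroup Γ) (hZ : Z.Normal) : Subgroup Γ where
  carrier := {g | ∀ z ∈ Z, z⁻¹ * (g * z * g⁻¹) ∈ S}
  mul_mem' := by
    intro g₁ g₂ h1 h2 z hz
    have h3 := h2 z hz
    have h4 := h1 _ (hZ.conj_mem z hz g₂)
    have e : z⁻¹ * (g₁ * g₂ * z * (g₁ * g₂)⁻¹) =
        (z⁻¹ * (g₂ * z * g₂⁻¹)) * ((g₂ * z * g₂⁻¹)⁻¹ * (g₁ * (g₂ * z * g₂⁻¹) * g₁⁻¹)) := by group
    rw [e]
    exact S.mul_mem h3 h4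
  one_mem' := by
    intro z _
    simpa using S.one_mem
  inv_mem' := by
    intro g h1 z hz
    have hy : g⁻¹ * z * g⁻¹⁻¹ ∈ Z := hZ.conj_mem z hz g⁻¹
    have h2 := h1 _ hy
    have e : (g⁻¹ * z * g⁻¹⁻¹)⁻¹ * (g * (g⁻¹ * z * g⁻¹⁻¹) * g⁻¹) = (z⁻¹ * (g⁻¹ * z * g⁻¹⁻¹))⁻¹ := by
      group
    rw [e] at h2
    simpa using S.inv_mem h2

omit [Finite Γ] in
theorem mem_Trv {Z S : Subgroup Γ} {hZ : Z.Normal} {g : Γ} :
    g ∈ Trv Z S hZ ↔ ∀ z ∈ Z, z⁻¹ * (g * z * g⁻¹) ∈ S := Iff.rfl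

omit [Finite Γ] in
/-- The conjugate of a subgroup. -/
def cj (g : Γ) (L : Subgroup Γ) : Subgroup Γ := L.map (MulAut.conj g).toMonoidHom

omit [Finite Γ] in
theorem mem_cj {g x : Γ} {L : Subgroup Γ} : x ∈ cj g L ↔ g⁻¹ * x * g ∈ L := by
  unfold cj
  constructor
  · rintro ⟨l, hl, rfl⟩
    simpa [mul_assoc] using hl
  · intro hx
    exact ⟨_, hx, by simp [mul_assoc]⟩

omit [Finite Γ] in
theorem mem_Trv_cj {Z L : Subgroup Γ} {hZ : Z.Normal} {g x : Γ} :
    x ∈ Trv Z (cj g L) hZ ↔ g⁻¹ * x * g ∈ Trv Z L hZ := by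
  constructor
  · intro h z hz
    have h1 := h (g * z * g⁻¹) (hZ.conj_mem z hz g)
    rw [mem_cj] at h1
    convert h1 using 1
    group
  · intro h z hz
    rw [mem_cj]
    have h1 := h (g⁻¹ * z * g) (by simpa using hZ.conj_mem z hz g⁻¹)
    convert h1 using 1
    group

variable (V : Type*) [AddCommGroup V] [Finite V] [DistribMulAction Γ V]

/-- The standing hypotheses. -/
structure Sys (p q u : ℕ) (A : Subgroup Γ) (a : Γ) (X Z : Subgroup Γ) : Prop where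
  F : IsF p q A a
  Xn : X.Normal
  Zn : Z.Normal
  ZX : Z ≤ X
  Zab : ∀ x ∈ Z, ∀ y ∈ Z, x * y = y * x
  Zu : ∀ z ∈ Z, z ^ u = 1
  uprime : u.Prime
  uV : u.Coprime (Nat.card V)
  AV : (Nat.card A).Coprime (Nat.card V)
  AX : (Nat.card A).Coprime (Nat.card X)
  Xsol : Group.IsSolvable X
  Xfix : ∀ x ∈ X, (∀ b ∈ A, b * x * b⁻¹ = x) → x = 1
  Vfix : ∀ v : V, (∀ b ∈ A, b • v = v) → v = 0
  V0 : ∀ v : V, (∀ z ∈ Z, z • v = v) → v = 0
  Zf : ∀ z ∈ Z, (∀ v : V, z • v = v) → z = 1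

variable {V}

/-- A maximal subgroup of `Z` having fixed points. -/
structure Hyp (V : Type*) [AddCommGroup V] [DistribMulAction Γ V] (Z L : Subgroup Γ) : Prop where
  le : L ≤ Z
  ne : L ≠ Z
  max : ∀ M : Subgroup Γ, L ≤ M → M ≤ Z → M ≠ L → M = Z
  good : ∃ v : V, v ≠ 0 ∧ ∀ l ∈ L, l • v = v

omit [Finite Γ] [Finite V] in
theorem normalizer_of_normal {Z : Subgroup Γ} (hZ : Z.Normal) (g : Γ) :
    g ∈ Subgroup.normalizer (Z : Set Γ) := by
  rw [Subgroup.mem_normalizer_iff]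
  intro x
  constructor
  · exact fun hx => hZ.conj_mem x hx g
  · intro hx
    have := hZ.conj_mem _ hx g⁻¹
    simpa [mul_assoc] using this

omit [Finite Γ] in
/-- Fixed points of a subgroup. -/
def fixS (V : Type*) [AddCommGroup V] [DistribMulAction Γ V]
    (L : Subgroup Γ) : AddSubgroup V where
  carrier := {v | ∀ l ∈ L, l • v = v}
  add_mem' := by
    intro a b h2 k2 l hl
    rw [smul_add, h2 l hl, k2 l hl]
  zero_mem' := fun l _ => smul_zero _
  neg_mem' := by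
    intro a h2 l hl
    rw [smul_neg, h2 l hl]

omit [Finite Γ] in
/-- The vectors fixed by all `X`-conjugates of the `[z, c]`. -/
def YY (V : Type*) [AddCommGroup V] [DistribMulAction Γ V] (X Z : Subgroup Γ) (c : Γ) : AddSubgroup V where
  carrier := {v | ∀ g ∈ X, ∀ z ∈ Z, (g * (c * z * c⁻¹ * z⁻¹) * g⁻¹) • v = v}
  add_mem' := by
    intro a b h2 k2 g hg z hz
    rw [smul_add, h2 g hg z hz, k2 g hg z hz]
  zero_mem' := fun g _ z _ => smul_zero _
  neg_mem' := by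
    intro a h2 g hg z hz
    rw [smul_neg, h2 g hg z hz]

namespace Sys

variable {p q u : ℕ} {A : Subgroup Γ} {a : Γ} {X Z : Subgroup Γ} (h : Sys V p q u A a X Z)
include h

theorem solv {K : Subgroup Γ} (hK : K ≤ X) : Group.IsSolvable K := by
  haveI := h.Xsol
  exact solvable_of_solvable_injective (Subgroup.inclusion_injective hK)

theorem cop {K : Subgroup Γ} (hK : K ≤ X) : (Nat.card A).Coprime (Nat.card K) :=
  Nat.Coprime.coprime_dvd_right (Subgroup.card_dvd_of_le hK) h.AX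

theorem copV {B : Subgroup Γ} (hB : B ≤ A) : (Nat.card B).Coprime (Nat.card V) :=
  Nat.Coprime.coprime_dvd_left (Subgroup.card_dvd_of_le hB) h.AV

theorem isP {T : Subgroup Γ} (hT : T ≤ Z) : IsPGroup u T := by
  intro g
  refine ⟨1, ?_⟩
  apply Subtype.ext
  simpa using h.Zu _ (hT g.2)

theorem card_cop {T : Subgroup Γ} (hT : T ≤ Z) : (Nat.card T).Coprime (Nat.card V) := by
  haveI : Fact u.Prime := ⟨h.uprime⟩
  obtain ⟨k, hk⟩ := IsPGroup.iff_card.mp (h.isP hT)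
  rw [hk]
  exact Nat.Coprime.pow_left k h.uV

theorem le_N {g : Γ} : g ∈ Subgroup.normalizer (Z : Set Γ) := normalizer_of_normal h.Zn g

theorem conjZ {z : Γ} (g : Γ) (hz : z ∈ Z) : g * z * g⁻¹ ∈ Z := h.Zn.conj_mem z hz g

theorem conjZ' {z : Γ} (g : Γ) (hz : z ∈ Z) : g⁻¹ * z * g ∈ Z := by
  simpa using h.Zn.conj_mem z hz g⁻¹

/-- A subgroup of `Z` is normalized by whatever acts trivially on the quotient. -/
theorem Trv_conj {S : Subgroup Γ} (hS : S ≤ Z) {g s : Γ} (hg : g ∈ Trv Z S h.Zn) (hs : s ∈ S) :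
    g * s * g⁻¹ ∈ S := by
  have h1 := hg s (hS hs)
  have h2 := S.mul_mem hs h1
  simpa using h2

theorem Trv_norm {S : Subgroup Γ} (hS : S ≤ Z) {g : Γ} (hg : g ∈ Trv Z S h.Zn) :
    g ∈ Subgroup.normalizer (S : Set Γ) :=
  IsF.mem_normalizer_of_conj S fun _ hs => h.Trv_conj hS hg hs

/-- If two independent elements act trivially on `Z / S`, then `S = Z`. -/
theorem eq_of_gen {S : Subgroup Γ} (hSZ : S ≤ Z) {c c' : Γ} (hc : c ∈ A) (hc' : c' ∈ A) (hc1 : c ≠ 1)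
    (hcc : c' ∉ Subgroup.zpowers c) (h1 : c ∈ Trv Z S h.Zn) (h2 : c' ∈ Trv Z S h.Zn) : S = Z := by
  have hle : A ≤ Trv Z S h.Zn := h.F.gen _ hc hc' hc1 hcc h1 h2
  apply le_antisymm hSZ
  intro z hz
  have hZN : Z ≤ Subgroup.normalizer (S : Set Γ) := by
    intro y hy
    apply IsF.mem_normalizer_of_conj
    intro s hs
    have : y * s * y⁻¹ = s := by
      rw [h.Zab y hy s (hSZ hs)]; group
    rw [this]; exact hs
  obtain ⟨c₀, hc₀, hk⟩ := exists_fixed_of_fixed_mod S (A := A) (K := Z)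
    (fun b _ => h.le_N) (h.cop h.ZX) (Or.inr (h.solv h.ZX)) hSZ hZN
    (fun b hb => h.Trv_norm hSZ (hle hb)) hz (fun b hb => by
      have h3 := hle hb z hz
      have e : b * z * b⁻¹ * z⁻¹ = z⁻¹ * (b * z * b⁻¹) := by
        rw [h.Zab _ (h.conjZ b hz) _ (Z.inv_mem hz)]
      rw [e]; exact h3)
  have hc₀1 : c₀ = 1 := by
    apply h.Xfix c₀ (h.ZX hc₀.1)
    intro b hb
    have h4 := Subgroup.mem_centralizer_iff.mp hc₀.2 b hb
    rw [h4]; group
  rw [hc₀1, mul_one] at hk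
  simpa using S.inv_mem hk

/-- Enough hyperplanes with fixed points. -/
theorem exists_good {y : Γ} (hy : y ∈ Z) (hy1 : y ≠ 1) :
    ∃ L : Subgroup Γ, Hyp V Z L ∧ y ∉ L := by
  classical
  obtain ⟨w₀, hyw⟩ : ∃ w₀ : V, y • w₀ ≠ w₀ := by
    by_contra hcon
    push Not at hcon
    exact hy1 (h.Zf y hy hcon)
  let F : Set (Subgroup Γ) := {L | L ≤ Z ∧ ∃ u : V, (∀ l ∈ L, l • u = u) ∧ y • u ≠ u}
  have hF : F.Finite := Set.toFinite F
  have hne : F.Nonempty := ⟨⊥, bot_le, w₀, fun l hl => by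
    rw [Subgroup.mem_bot.mp hl, one_smul], hyw⟩
  obtain ⟨L, hLmax⟩ := hF.exists_maximal hne
  obtain ⟨hLZ, v₁, huL, hyu⟩ := hLmax.prop
  have hLmax' : ∀ M, M ∈ F → L ≤ M → M ≤ L := fun M hM hle => hLmax.le_of_ge hM hle
  have hZv : ∀ v : V, (∀ l ∈ L, l • v = v) → y • v ≠ v → ∀ t ∈ Z, t • v = v → t ∈ L := by
    intro v hvL hyv t ht htv
    let M : Subgroup Γ := Z ⊓ MulAction.stabilizer Γ v
    have hM : M ∈ F := ⟨inf_le_left, v, fun l hl =>
      MulAction.mem_stabilizer_iff.mp (Subgroup.mem_inf.mp hl).2, hyv⟩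
    have hLM : L ≤ M := fun l hl =>
      Subgroup.mem_inf.mpr ⟨hLZ hl, MulAction.mem_stabilizer_iff.mpr (hvL l hl)⟩
    exact hLmax' M hM hLM (Subgroup.mem_inf.mpr ⟨ht, MulAction.mem_stabilizer_iff.mpr htv⟩)
  have hyL : y ∉ L := fun hl => hyu (huL y hl)
  have hA : ∀ t ∈ Z, ∃ l ∈ L, ∃ n : ℤ, t = l * y ^ n := by
    intro t ht
    by_contra hcon
    push Not at hcon
    let U : AddSubgroup V :=
      { carrier := {v | ∀ l ∈ L, l • v = v}
        add_mem' := by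
          intro a b h2 k2 l hl
          rw [smul_add, h2 l hl, k2 l hl]
        zero_mem' := fun l _ => smul_zero _
        neg_mem' := by
          intro a h2 l hl
          rw [smul_neg, h2 l hl] }
    have hstab : ∀ x ∈ Z, ∀ v ∈ U, x • v ∈ U := by
      intro x hx v h2 l hl
      rw [← mul_smul, h.Zab l (hLZ hl) x hx, mul_smul, h2 l hl]
    obtain ⟨j, v, hv2, hv3, hv4⟩ := exists_fixed_of_pair U h.uprime h.uV (hstab t ht) (hstab y hy)
      (fun v _ => by rw [h.Zu t ht, one_smul]) (fun v _ => by rw [h.Zu y hy, one_smul])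
      (fun v _ => by rw [h.Zab t ht y hy]) (show v₁ ∈ U from huL) hyu
    have h1 := hZv v hv2 hv4 _ (Z.mul_mem ht (Z.pow_mem hy j)) hv3
    apply hcon _ h1 (-(j : ℤ))
    simp
  refine ⟨L, ⟨hLZ, ?_, ?_, v₁, ?_, huL⟩, hyL⟩
  · intro he
    rw [he] at hyL
    exact hyL hy
  · intro M hLM hMZ hne
    obtain ⟨t, htM, htL⟩ : ∃ t ∈ M, t ∉ L := by
      by_contra hcon
      push Not at hcon
      exact hne (le_antisymm hcon hLM)
    obtain ⟨l, hl, n, hn⟩ := hA t (hMZ htM)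
    have hyn : y ^ n ∈ M := by
      have : y ^ n = l⁻¹ * t := by rw [hn]; group
      rw [this]
      exact M.mul_mem (M.inv_mem (hLM hl)) htM
    have hqL : y ^ (u : ℤ) = 1 := by
      exact_mod_cast h.Zu y hy
    have hqn : ¬ (u : ℤ) ∣ n := by
      rintro ⟨m, rfl⟩
      apply htL
      rw [hn, zpow_mul, hqL, one_zpow, mul_one]
      exact hl
    have hcop : IsCoprime n (u : ℤ) := by
      have hq' := Nat.prime_iff_prime_int.mp h.uprime
      exact ((Prime.coprime_iff_not_dvd hq').mpr hqn).symm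
    obtain ⟨a, b, hab⟩ := hcop
    have hyM : y ∈ M := by
      have e : y = (y ^ n) ^ a * (y ^ (u : ℤ)) ^ b := by
        rw [← zpow_mul, ← zpow_mul, ← zpow_add, mul_comm n a, mul_comm (u : ℤ) b, hab, zpow_one]
      rw [e, hqL, one_zpow, mul_one]
      exact M.zpow_mem hyn a
    apply le_antisymm hMZ
    intro z hz
    obtain ⟨l', hl', n', hn'⟩ := hA z hz
    rw [hn']
    exact M.mul_mem (hLM hl') (M.zpow_mem hyM n')
  · intro h0
    rw [h0, smul_zero] at hyu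
    exact hyu rfl

/-- The main counting identity. -/
theorem key_sum (T B : Subgroup Γ) (hTZ : T ≤ Z) (hBA : B ≤ A) {w : V} (hTw : ∀ τ ∈ T, τ • w = w)
    (hBw : ∀ b ∈ B, b • w = w)
    (hS : ∀ b ∈ A, b ∉ B → ∀ S₀ : Subgroup Γ, T ≤ S₀ → S₀ ≤ Z → (∀ τ ∈ T, b * τ * b⁻¹ ∈ S₀) → S₀ = Z) :
    w = 0 := by
  classical
  haveI := Fintype.ofFinite A
  haveI := Fintype.ofFinite T
  have hν : ∀ c ∈ A, c • ∑ b : A, (b : Γ) • w = ∑ b : A, (b : Γ) • w := by
    intro c hc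
    rw [Finset.smul_sum]
    refine Fintype.sum_equiv (Equiv.mulLeft (⟨c, hc⟩ : A)) _ _ fun x => ?_
    simp [mul_smul]
  have hν0 : ∑ b : A, (b : Γ) • w = 0 := h.Vfix _ hν
  let E : V → V := fun y => ∑ τ : T, (τ : Γ) • y
  have hEadd : ∑ τ : T, (τ : Γ) • (∑ b : A, (b : Γ) • w) = ∑ b : A, E ((b : Γ) • w) := by
    simp_rw [Finset.smul_sum]
    rw [Finset.sum_comm]
  have hE0 : ∑ b : A, E ((b : Γ) • w) = 0 := by
    rw [← hEadd, hν0]
    simp
  have hEfix : ∀ y : V, ∀ τ ∈ T, τ • E y = E y := by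
    intro y τ hτ
    show τ • ∑ τ' : T, (τ' : Γ) • y = ∑ τ' : T, (τ' : Γ) • y
    rw [Finset.smul_sum]
    refine Fintype.sum_equiv (Equiv.mulLeft (⟨τ, hτ⟩ : T)) _ _ fun x => ?_
    simp [mul_smul]
  have hout : ∀ b : A, (b : Γ) ∉ B → E ((b : Γ) • w) = 0 := by
    intro b hbB
    let v := E ((b : Γ) • w)
    let S₀ : Subgroup Γ := Z ⊓ MulAction.stabilizer Γ v
    have hS₀ : S₀ = Z := by
      apply hS b b.2 hbB S₀
      · intro τ hτ
        exact Subgroup.mem_inf.mpr ⟨hTZ hτ, MulAction.mem_stabilizer_iff.mpr (hEfix _ τ hτ)⟩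
      · exact inf_le_left
      · intro τ hτ
        refine Subgroup.mem_inf.mpr ⟨h.conjZ _ (hTZ hτ), MulAction.mem_stabilizer_iff.mpr ?_⟩
        show ((b : Γ) * τ * (b : Γ)⁻¹) • ∑ τ' : T, (τ' : Γ) • ((b : Γ) • w) = ∑ τ' : T, (τ' : Γ) • ((b : Γ) • w)
        rw [Finset.smul_sum]
        refine Finset.sum_congr rfl fun τ' _ => ?_
        rw [← mul_smul, h.Zab _ (h.conjZ _ (hTZ hτ)) _ (hTZ τ'.2), mul_smul, conj_smul_smul, hTw τ hτ]
    apply h.V0
    intro z hz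
    have hz' : z ∈ S₀ := by rw [hS₀]; exact hz
    exact MulAction.mem_stabilizer_iff.mp (Subgroup.mem_inf.mp hz').2
  have hin : ∀ b : A, (b : Γ) ∈ B → E ((b : Γ) • w) = Nat.card T • w := by
    intro b hbB
    rw [hBw _ hbB]
    show ∑ τ' : T, (τ' : Γ) • w = _
    rw [Finset.sum_congr rfl (fun (τ' : T) _ => hTw τ' τ'.2)]
    simp [Nat.card_eq_fintype_card]
  have hsum : ∑ b : A, E ((b : Γ) • w) =
      (Finset.univ.filter (fun b : A => (b : Γ) ∈ B)).card • (Nat.card T • w) := by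
    rw [← Finset.sum_filter_add_sum_filter_not Finset.univ (fun b : A => (b : Γ) ∈ B)]
    rw [Finset.sum_congr rfl (fun b hb => hin b (Finset.mem_filter.mp hb).2)]
    rw [Finset.sum_eq_zero (s := Finset.univ.filter (fun b : A => ¬ (b : Γ) ∈ B))
      (fun b hb => hout b (Finset.mem_filter.mp hb).2)]
    simp
  have hcard : (Finset.univ.filter (fun b : A => (b : Γ) ∈ B)).card ∣ Nat.card A := by
    have h1 : (Finset.univ.filter (fun b : A => (b : Γ) ∈ B)).card = Nat.card (B.subgroupOf A) := by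
      rw [Nat.card_eq_fintype_card, ← Fintype.card_subtype]
      rfl
    rw [h1]
    exact Subgroup.card_subgroup_dvd_card _
  rw [hE0] at hsum
  have hc1 : ((Finset.univ.filter (fun b : A => (b : Γ) ∈ B)).card).Coprime (Nat.card V) :=
    Nat.Coprime.coprime_dvd_left hcard h.AV
  have h2 := nsmul_cancel hc1 hsum.symm
  exact nsmul_cancel (h.card_cop hTZ) h2

/-- Every element of `Z` is `l z₀^i`. -/
theorem exists_mul_zpow {L : Subgroup Γ} (hL : Hyp V Z L) {z₀ x : Γ} (hz₀ : z₀ ∈ Z) (hz₀L : z₀ ∉ L)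
    (hx : x ∈ Z) : ∃ l ∈ L, ∃ i : ℤ, x = l * z₀ ^ i := by
  let M : Subgroup Γ :=
    { carrier := {x | x ∈ Z ∧ ∃ l ∈ L, ∃ i : ℤ, x = l * z₀ ^ i}
      mul_mem' := by
        rintro x y ⟨hx, l, hl, i, rfl⟩ ⟨hy, l', hl', j, rfl⟩
        refine ⟨Z.mul_mem hx hy, l * l', L.mul_mem hl hl', i + j, ?_⟩
        have hc := h.Zab _ (Z.zpow_mem hz₀ i) _ (hL.le hl')
        rw [zpow_add]
        calc l * z₀ ^ i * (l' * z₀ ^ j) = l * (z₀ ^ i * l') * z₀ ^ j := by group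
          _ = l * (l' * z₀ ^ i) * z₀ ^ j := by rw [hc]
          _ = l * l' * (z₀ ^ i * z₀ ^ j) := by group
      one_mem' := ⟨Z.one_mem, 1, L.one_mem, 0, by simp⟩
      inv_mem' := by
        rintro x ⟨hx, l, hl, i, rfl⟩
        refine ⟨Z.inv_mem hx, l⁻¹, L.inv_mem hl, -i, ?_⟩
        rw [mul_inv_rev, zpow_neg]
        exact h.Zab _ (Z.inv_mem (Z.zpow_mem hz₀ i)) _ (Z.inv_mem (hL.le hl)) }
  have hM : M = Z := by
    apply hL.max M (fun l hl => ⟨hL.le hl, l, hl, 0, by simp⟩) (fun x hx => hx.1)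
    intro he
    have h1 : z₀ ∈ M := ⟨hz₀, 1, L.one_mem, 1, by simp⟩
    rw [he] at h1
    exact hz₀L h1
  have hxM : x ∈ M := by rw [hM]; exact hx
  exact hxM.2

/-- Conjugating `l z^j` by `g`. -/
theorem conj_form {L : Subgroup Γ} (hL : Hyp V Z L) {g z l₁ l₂ : Γ} {i j : ℤ}
    (hg : g ∈ Subgroup.normalizer (L : Set Γ)) (hz : z ∈ Z) (h1 : g * z * g⁻¹ = l₁ * z ^ i)
    (hl₁ : l₁ ∈ L) (hl₂ : l₂ ∈ L) :
    ∃ m ∈ L, g * (l₂ * z ^ j) * g⁻¹ = m * z ^ (i * j) := by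
  refine ⟨(g * l₂ * g⁻¹) * l₁ ^ j, L.mul_mem ((Subgroup.mem_normalizer_iff.mp hg l₂).mp hl₂)
    (L.zpow_mem hl₁ j), ?_⟩
  have hc : Commute l₁ (z ^ i) := h.Zab _ (hL.le hl₁) _ (Z.zpow_mem hz i)
  have e1 : g * (l₂ * z ^ j) * g⁻¹ = (g * l₂ * g⁻¹) * (g * z * g⁻¹) ^ j := by
    rw [conj_zpow]; group
  rw [e1, h1, hc.mul_zpow, ← zpow_mul]
  simp only [mul_assoc]

/-- Two normalizers of `L` commute modulo `L`, on `Z`. -/
theorem comm_mod {L : Subgroup Γ} (hL : Hyp V Z L) {g₁ g₂ z : Γ}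
    (h1 : g₁ ∈ Subgroup.normalizer (L : Set Γ)) (h2 : g₂ ∈ Subgroup.normalizer (L : Set Γ))
    (hz : z ∈ Z) : ((g₂ * g₁) * z * (g₂ * g₁)⁻¹)⁻¹ * ((g₁ * g₂) * z * (g₁ * g₂)⁻¹) ∈ L := by
  by_cases hzL : z ∈ L
  · have hm : ∀ g ∈ Subgroup.normalizer (L : Set Γ), g * z * g⁻¹ ∈ L := fun g hg =>
      (Subgroup.mem_normalizer_iff.mp hg z).mp hzL
    exact L.mul_mem (L.inv_mem (hm _ (Subgroup.mul_mem _ h2 h1))) (hm _ (Subgroup.mul_mem _ h1 h2))
  · obtain ⟨l₁, hl₁, i, e₁⟩ := h.exists_mul_zpow hL hz hzL (h.conjZ g₁ hz)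
    obtain ⟨l₂, hl₂, j, e₂⟩ := h.exists_mul_zpow hL hz hzL (h.conjZ g₂ hz)
    obtain ⟨m, hm, e₃⟩ := h.conj_form hL h1 hz e₁ hl₁ hl₂ (j := j)
    obtain ⟨m', hm', e₄⟩ := h.conj_form hL h2 hz e₂ hl₂ hl₁ (j := i)
    have e₅ : (g₁ * g₂) * z * (g₁ * g₂)⁻¹ = m * z ^ (i * j) := by
      rw [← e₃, ← e₂]; group
    have e₆ : (g₂ * g₁) * z * (g₂ * g₁)⁻¹ = m' * z ^ (i * j) := by
      rw [mul_comm i j, ← e₄, ← e₁]; group
    rw [e₅, e₆]
    have hc := h.Zab _ (hL.le hm') _ (Z.zpow_mem hz (i * j))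
    have hc2 := h.Zab _ (hL.le hm) _ (Z.zpow_mem hz (i * j))
    have e₇ : (m' * z ^ (i * j))⁻¹ * (m * z ^ (i * j)) = m'⁻¹ * m := by
      rw [hc, hc2]; group
    rw [e₇]
    exact L.mul_mem (L.inv_mem hm') hm

/-- A commutator of two normalizers acts trivially on `Z / L`. -/
theorem comm_Trv {L : Subgroup Γ} (hL : Hyp V Z L) {b c : Γ}
    (hb : b ∈ Subgroup.normalizer (L : Set Γ)) (hc : c ∈ Subgroup.normalizer (L : Set Γ)) :
    b * c * b⁻¹ * c⁻¹ ∈ Trv Z L h.Zn := by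
  intro z hz
  have hy : (c * b)⁻¹ * z * (c * b) ∈ Z := h.conjZ' _ hz
  have h1 := h.comm_mod hL hb hc hy
  convert h1 using 1
  group

/-- **Purity.** -/
theorem purity {L : Subgroup Γ} (hL : Hyp V Z L) : ∃ c ∈ A, c ≠ 1 ∧ c ∈ Trv Z L h.Zn := by
  have hF := h.F
  obtain ⟨v₀, hv₀, hv₀L⟩ := hL.good
  by_cases hAN : A ≤ Subgroup.normalizer (L : Set Γ)
  · obtain ⟨b, hb, hba⟩ := hF.nonab
    refine ⟨b * a * b⁻¹ * a⁻¹, A.mul_mem (A.mul_mem (A.mul_mem hb hF.aA) (A.inv_mem hb))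
      (A.inv_mem hF.aA), ?_, h.comm_Trv hL (hAN hb) (hAN hF.aA)⟩
    intro he
    apply hba
    calc b * a = (b * a * b⁻¹ * a⁻¹) * (a * b) := by group
      _ = a * b := by rw [he, one_mul]
  · let B : Subgroup Γ := A ⊓ Subgroup.normalizer (L : Set Γ)
    have star : ∀ w : V, (∀ l ∈ L, l • w = w) → (∀ b ∈ B, b • w = w) → w = 0 := by
      intro w h1 h2
      refine h.key_sum L B hL.le inf_le_left h1 h2 ?_
      intro b hb hbB S₀ h3 h4 h5
      by_cases he : S₀ = L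
      · exfalso
        apply hbB
        refine ⟨hb, IsF.mem_normalizer_of_conj L fun x hx => ?_⟩
        have := h5 x hx
        rwa [he] at this
      · exact hL.max S₀ h3 h4 he
    obtain ⟨c, hcB, hc1⟩ : ∃ c ∈ B, c ≠ 1 := by
      by_contra hcon
      push Not at hcon
      exact hv₀ (star v₀ hv₀L (fun b hb => by rw [hcon b hb, one_smul]))
    have hBle : ∀ b ∈ B, b ∈ Subgroup.zpowers c := by
      intro b hb
      by_contra hbc
      exact hAN (fun x hx => (hF.gen (Subgroup.normalizer (L : Set Γ)) hcB.1 hb.1 hc1 hbc hcB.2 hb.2) hx)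
    refine ⟨c, hcB.1, hc1, ?_⟩
    have hcN : ∀ g ∈ Subgroup.zpowers c, g ∈ Subgroup.normalizer (Z : Set Γ) := fun g _ => h.le_N
    let J : Subgroup Γ := ⁅Z, Subgroup.zpowers c⁆
    have hJZ : J ≤ Z := commutator_le_of_le_normalizer hcN
    haveI hZc : IsMulCommutative Z := ⟨⟨fun x y => Subtype.ext (h.Zab _ x.2 _ y.2)⟩⟩
    have hcop : (Nat.card (Subgroup.zpowers c)).Coprime (Nat.card Z) :=
      Nat.Coprime.coprime_dvd_left (Subgroup.card_dvd_of_le ((Subgroup.zpowers_le).mpr hcB.1))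
        (h.cop h.ZX)
    have hJfix : ∀ y ∈ J, y • v₀ = v₀ := by
      intro y hy
      refine frob_trivial J (a := c) (p := orderOf c) (hF.order_prime hcB.1 hc1)
        (pow_orderOf_eq_one c) ?_ ?_ (fixS V L) ?_ ?_ ?_ ?_ hy hv₀L
      · intro y hy
        have h1 := le_normalizer_commutator_right Z (Subgroup.zpowers c) (Subgroup.mem_zpowers c)
        exact (Subgroup.mem_normalizer_iff.mp h1 y).mp hy
      · intro y hy hyc
        have h1 := Cfsg.Agent.Lib.Coprime.Abelian.inf_commutator_eq_bot hcN hcop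
        have h2 : y ∈ (Z ⊓ Subgroup.centralizer (Subgroup.zpowers c : Set Γ)) ⊓
            ⁅Z, Subgroup.zpowers c⁆ := by
          refine ⟨⟨hJZ hy, ?_⟩, hy⟩
          apply Subgroup.mem_centralizer_iff.mpr
          intro g hg
          have h3 : c * y = y * c := by
            calc c * y = (c * y * c⁻¹) * c := by group
              _ = y * c := by rw [hyc]
          exact cen_eq_of_mem hg h3
        rw [h1] at h2
        exact Subgroup.mem_bot.mp h2
      · intro y hy w hw l hl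
        rw [← mul_smul, h.Zab l (hL.le hl) y (hJZ hy), mul_smul, hw l hl]
      · intro w hw l hl
        have h1 : c⁻¹ * l * c ∈ L := by
          have := (Subgroup.mem_normalizer_iff.mp (Subgroup.inv_mem _ hcB.2) l).mp hl
          simpa using this
        have e : l • c • w = c • ((c⁻¹ * l * c) • w) := by
          rw [← mul_smul, ← mul_smul]
          congr 1
          group
        rw [e, hw _ h1]
      · intro w hw hcw
        apply star w hw
        intro b hb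
        have : Subgroup.zpowers c ≤ MulAction.stabilizer Γ w :=
          (Subgroup.zpowers_le).mpr (MulAction.mem_stabilizer_iff.mpr hcw)
        exact MulAction.mem_stabilizer_iff.mp (this (hBle b hb))
      · intro w _ h0
        exact nsmul_cancel (h.card_cop hJZ) h0
    have hJL : J ≤ L := by
      intro y hy
      let S' : Subgroup Γ := Z ⊓ MulAction.stabilizer Γ v₀
      have hS' : S' = L := by
        by_contra hne
        have h1 : S' = Z := hL.max S' (fun l hl => ⟨hL.le hl, hv₀L l hl⟩) inf_le_left hne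
        apply hv₀
        apply h.V0
        intro z hz
        have : z ∈ S' := by rw [h1]; exact hz
        exact this.2
      rw [← hS']
      exact ⟨hJZ hy, hJfix y hy⟩
    intro z hz
    apply hJL
    have h1 : ⁅z⁻¹, c⁆ ∈ J := Subgroup.commutator_mem_commutator (Z.inv_mem hz) (Subgroup.mem_zpowers c)
    convert h1 using 1
    rw [commutatorElement_def]
    group

/-- Conjugates of good hyperplanes are good. -/
theorem hyp_conj {L : Subgroup Γ} (hL : Hyp V Z L) (g : Γ) : Hyp V Z (cj g L) := by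
  refine ⟨?_, ?_, ?_, ?_⟩
  · intro x hx
    rw [mem_cj] at hx
    have := h.conjZ g (hL.le hx)
    simpa [mul_assoc] using this
  · intro he
    apply hL.ne
    apply le_antisymm hL.le
    intro z hz
    have h1 : g * z * g⁻¹ ∈ cj g L := by
      rw [he]; exact h.conjZ g hz
    rw [mem_cj] at h1
    simpa [mul_assoc] using h1
  · intro M hLM hMZ hne
    have hmem : ∀ x, x ∈ cj g⁻¹ M ↔ g * x * g⁻¹ ∈ M := by
      intro x
      rw [mem_cj]
      simp
    have hM' : cj g⁻¹ M = Z := by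
      apply hL.max
      · intro l hl
        rw [hmem]
        apply hLM
        rw [mem_cj]
        simpa [mul_assoc] using hl
      · intro x hx
        rw [hmem] at hx
        have := h.conjZ' g (hMZ hx)
        simpa [mul_assoc] using this
      · intro he
        apply hne
        ext x
        rw [mem_cj, ← he, hmem]
        simp [mul_assoc]
    apply le_antisymm hMZ
    intro z hz
    have h1 : g⁻¹ * z * g ∈ cj g⁻¹ M := by rw [hM']; exact h.conjZ' g hz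
    rw [hmem] at h1
    simpa [mul_assoc] using h1
  · obtain ⟨v, hv, hvL⟩ := hL.good
    refine ⟨g • v, fun h0 => hv ((smul_eq_zero_iff_eq g).mp h0), ?_⟩
    intro l hl
    rw [mem_cj] at hl
    have h1 := hvL _ hl
    have e : l • g • v = g • ((g⁻¹ * l * g) • v) := by
      rw [← mul_smul, ← mul_smul]
      congr 1
      group
    rw [e, h1]

/-- The element of `A` acting trivially on `Z/L` is the same for all `X`-conjugates of `L`. -/
theorem orbit {L : Subgroup Γ} (hL : Hyp V Z L) {c g : Γ} (hc : c ∈ A) (hc1 : c ≠ 1)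
    (hcT : c ∈ Trv Z L h.Zn) (hg : g ∈ X) : c ∈ Trv Z (cj g L) h.Zn := by
  obtain ⟨c', hc', hc'1, hc'T⟩ := h.purity (h.hyp_conj hL g)
  by_cases hcc : c' ∈ Subgroup.zpowers c
  · have h1 : c ∈ Subgroup.zpowers c' := h.F.mem_symm hc hc1 hcc hc'1
    exact (Subgroup.zpowers_le.mpr hc'T) h1
  · exfalso
    haveI := h.Xn
    have hP : ∀ x, x ∈ X ⊔ Trv Z L h.Zn → ∃ k ∈ X, k * x ∈ Trv Z L h.Zn := by
      intro x hx
      rw [← SetLike.mem_coe, Subgroup.normal_mul, Set.mem_mul] at hx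
      obtain ⟨k, hk, t, ht, rfl⟩ := hx
      exact ⟨k⁻¹, X.inv_mem hk, by simpa using ht⟩
    have hc'P : c' ∈ X ⊔ Trv Z L h.Zn := by
      have e : c' = (c' * g⁻¹ * c'⁻¹ * g) * (g⁻¹ * c' * g) := by group
      rw [e]
      refine Subgroup.mul_mem _ (Subgroup.mem_sup_left ?_) (Subgroup.mem_sup_right (mem_Trv_cj.mp hc'T))
      exact X.mul_mem (h.Xn.conj_mem _ (X.inv_mem hg) c') hg
    have hA : A ≤ X ⊔ Trv Z L h.Zn := h.F.gen _ hc hc' hc1 hcc (Subgroup.mem_sup_right hcT) hc'P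
    obtain ⟨k, -, hkA⟩ := glauberman_exists (Trv Z L h.Zn) (A := A) (K := X)
      (fun _ _ => normalizer_of_normal h.Xn _) h.AX (Or.inr h.Xsol) (fun b hb => hP b (hA hb))
    have e := h.eq_of_gen (S := cj k L) (h.hyp_conj hL k).le hc hc' hc1 hcc
      (mem_Trv_cj.mpr (hkA c hc)) (mem_Trv_cj.mpr (hkA c' hc'))
    exact (h.hyp_conj hL k).ne e

omit h in
theorem mem_YY {c : Γ} {v : V} :
    v ∈ YY V X Z c ↔ ∀ g ∈ X, ∀ z ∈ Z, (g * (c * z * c⁻¹ * z⁻¹) * g⁻¹) • v = v := Iff.rfl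

/-- The dichotomy: if `a` does not centralize `Z`, there is `c ∉ ⟨a⟩` with `Y_c ≠ 0`. -/
theorem dichotomy {z : Γ} (hz : z ∈ Z) (hna : a * z ≠ z * a) :
    ∃ c ∈ A, c ∉ Subgroup.zpowers a ∧ ∃ v : V, v ≠ 0 ∧ v ∈ YY V X Z c := by
  have hy₀ : z⁻¹ * (a * z * a⁻¹) ∈ Z := Z.mul_mem (Z.inv_mem hz) (h.conjZ a hz)
  have hy₁ : z⁻¹ * (a * z * a⁻¹) ≠ 1 := by
    intro he
    apply hna
    calc a * z = z * (z⁻¹ * (a * z * a⁻¹)) * a := by group
      _ = z * a := by rw [he, mul_one]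
  obtain ⟨L, hL, hyL⟩ := h.exists_good hy₀ hy₁
  obtain ⟨c, hc, hc1, hcT⟩ := h.purity hL
  refine ⟨c, hc, ?_, ?_⟩
  · intro hca
    have h1 : a ∈ Subgroup.zpowers c := h.F.mem_symm h.F.aA h.F.a1 hca hc1
    exact hyL ((Subgroup.zpowers_le.mpr hcT) h1 z hz)
  · obtain ⟨v, hv, hvL⟩ := hL.good
    refine ⟨v, hv, ?_⟩
    intro g hg y hy
    apply hvL
    have h1 := h.orbit hL hc hc1 hcT (X.inv_mem hg) y hy
    rw [mem_cj] at h1
    have e : c * y * c⁻¹ * y⁻¹ = y⁻¹ * (c * y * c⁻¹) := h.Zab _ (h.conjZ c hy) _ (Z.inv_mem hy)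
    rw [e]
    simpa using h1

/-- `Y_c` is invariant under `X`. -/
theorem YY_X {c x : Γ} {v : V} (hv : v ∈ YY V X Z c) (hx : x ∈ X) : x • v ∈ YY V X Z c := by
  intro g hg z hz
  have h1 := hv (x⁻¹ * g) (X.mul_mem (X.inv_mem hx) hg) z hz
  have e : (g * (c * z * c⁻¹ * z⁻¹) * g⁻¹) • x • v =
      x • ((x⁻¹ * g * (c * z * c⁻¹ * z⁻¹) * (x⁻¹ * g)⁻¹) • v) := by
    rw [← mul_smul, ← mul_smul]
    congr 1
    group
  rw [e, h1]

/-- `Y_c` is invariant under `c`. -/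
theorem YY_c {c : Γ} {v : V} (hv : v ∈ YY V X Z c) : c • v ∈ YY V X Z c := by
  intro g hg z hz
  have h1 := hv (c⁻¹ * g * c) (by simpa using h.Xn.conj_mem g hg c⁻¹) (c⁻¹ * z * c) (h.conjZ' c hz)
  have e : (g * (c * z * c⁻¹ * z⁻¹) * g⁻¹) • c • v =
      c • ((c⁻¹ * g * c * (c * (c⁻¹ * z * c) * c⁻¹ * (c⁻¹ * z * c)⁻¹) * (c⁻¹ * g * c)⁻¹) • v) := by
    rw [← mul_smul, ← mul_smul]
    congr 1
    group
  rw [e, h1]

/-- `c` has no fixed points on `Y_c`. -/
theorem YY_free {c : Γ} {v : V} (hc : c ∈ A) (hca : c ∉ Subgroup.zpowers a) (hv : v ∈ YY V X Z c)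
    (hcv : c • v = v) : v = 0 := by
  have hc1 : c ≠ 1 := fun h1 => hca (by rw [h1]; exact Subgroup.one_mem _)
  let T : Subgroup Γ := Subgroup.closure {y | ∃ z ∈ Z, y = c * z * c⁻¹ * z⁻¹}
  have hTZ : T ≤ Z := by
    rw [Subgroup.closure_le]
    rintro _ ⟨z, hz, rfl⟩
    exact Z.mul_mem (h.conjZ c hz) (Z.inv_mem hz)
  have hgen : ∀ z ∈ Z, c * z * c⁻¹ * z⁻¹ ∈ T := fun z hz => Subgroup.subset_closure ⟨z, hz, rfl⟩
  refine h.key_sum T (Subgroup.zpowers c) hTZ ((Subgroup.zpowers_le).mpr hc) ?_ ?_ ?_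
  · intro τ hτ
    have hle : T ≤ MulAction.stabilizer Γ v := by
      rw [Subgroup.closure_le]
      rintro _ ⟨z, hz, rfl⟩
      have := hv 1 X.one_mem z hz
      simpa using this
    exact MulAction.mem_stabilizer_iff.mp (hle hτ)
  · intro b hb
    have : Subgroup.zpowers c ≤ MulAction.stabilizer Γ v :=
      (Subgroup.zpowers_le).mpr (MulAction.mem_stabilizer_iff.mpr hcv)
    exact MulAction.mem_stabilizer_iff.mp (this hb)
  · intro b hb hbc S₀ h1 h2 h3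
    refine h.eq_of_gen h2 hc (A.mul_mem (A.mul_mem hb hc) (A.inv_mem hb)) hc1
      (h.F.conj_notMem hc hca hb hbc) ?_ ?_
    · intro z hz
      apply h1
      have e : z⁻¹ * (c * z * c⁻¹) = c * z * c⁻¹ * z⁻¹ :=
        h.Zab _ (Z.inv_mem hz) _ (h.conjZ c hz)
      rw [e]
      exact hgen z hz
    · intro z hz
      have h4 := h3 _ (hgen _ (h.conjZ' b hz))
      have e : z⁻¹ * (b * c * b⁻¹ * z * (b * c * b⁻¹)⁻¹) =
          b * ((c * (b⁻¹ * z * b) * c⁻¹ * (b⁻¹ * z * b)⁻¹)) * b⁻¹ := by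
        have e1 : c * (b⁻¹ * z * b) * c⁻¹ * (b⁻¹ * z * b)⁻¹ = (b⁻¹ * z * b)⁻¹ * (c * (b⁻¹ * z * b) * c⁻¹) :=
          h.Zab _ (h.conjZ c (h.conjZ' b hz)) _ (Z.inv_mem (h.conjZ' b hz))
        rw [e1]
        group
      rw [e]
      exact h4

/-- If `a` centralizes `Z`, then `a` has no fixed points on `V`. -/
theorem free_of_centralizes (hac : ∀ z ∈ Z, a * z = z * a) {v : V} (hv : a • v = v) : v = 0 := by
  have hF := h.F
  obtain ⟨t, ht, hta⟩ := hF.exists_notMem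
  have hord : orderOf t = q := hF.orderOf_of_notMem ht hta
  let W : AddSubgroup V := fixS V (Subgroup.zpowers a)
  have hWmem : ∀ w : V, w ∈ W ↔ a • w = w := by
    intro w
    constructor
    · intro hw
      exact hw a (Subgroup.mem_zpowers a)
    · intro hw b hb
      have : Subgroup.zpowers a ≤ MulAction.stabilizer Γ w :=
        (Subgroup.zpowers_le).mpr (MulAction.mem_stabilizer_iff.mpr hw)
      exact MulAction.mem_stabilizer_iff.mp (this hb)
  apply h.V0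
  intro z hz
  refine frob_trivial Z (a := t) (p := q) hF.hq (by rw [← hord]; exact pow_orderOf_eq_one t) ?_ ?_ W
    ?_ ?_ ?_ ?_ hz ((hWmem v).mpr hv)
  · exact fun y hy => h.conjZ t hy
  · intro y hy hyt
    apply h.Xfix y (h.ZX hy)
    have h3 : t * y = y * t := by
      calc t * y = (t * y * t⁻¹) * t := by group
        _ = y * t := by rw [hyt]
    have hle := hF.gen (Subgroup.centralizer ({y} : Set Γ)) hF.aA ht hF.a1 hta
      (Subgroup.mem_centralizer_singleton_iff.mpr (hac y hy))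
      (Subgroup.mem_centralizer_singleton_iff.mpr h3)
    intro b hb
    have h4 := Subgroup.mem_centralizer_singleton_iff.mp (hle hb)
    rw [h4]
    group
  · intro y hy w hw
    rw [hWmem] at hw ⊢
    rw [← mul_smul, hac y hy, mul_smul, hw]
  · intro w hw
    rw [hWmem] at hw ⊢
    have h1 : t⁻¹ * a * t ∈ Subgroup.zpowers a := by
      simpa using hF.anorm t⁻¹ (A.inv_mem ht)
    have h2 : (t⁻¹ * a * t) • w = w := by
      have : Subgroup.zpowers a ≤ MulAction.stabilizer Γ w :=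
        (Subgroup.zpowers_le).mpr (MulAction.mem_stabilizer_iff.mpr hw)
      exact MulAction.mem_stabilizer_iff.mp (this h1)
    have e : a • t • w = t • ((t⁻¹ * a * t) • w) := by
      rw [← mul_smul, ← mul_smul]
      congr 1
      group
    rw [e, h2]
  · intro w hw htw
    rw [hWmem] at hw
    apply h.Vfix
    have hle := hF.gen (MulAction.stabilizer Γ w) hF.aA ht hF.a1 hta
      (MulAction.mem_stabilizer_iff.mpr hw) (MulAction.mem_stabilizer_iff.mpr htw)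
    exact fun b hb => MulAction.mem_stabilizer_iff.mp (hle hb)
  · intro w _ h0
    exact nsmul_cancel (h.card_cop le_rfl) h0

end Sys

end Cfsg.Agent.Lib.FrobAct.Weights
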