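import Cfsg.Agent.Lib.FrobAct.Sec
import Cfsg.Agent.Lib.Ward.Main

/-!
# From types to the semidirect product; the chief factor reduction
-/

set_option autoImplicit false

namespace Cfsg.Agent.Lib.FrobAct.Wrap

open Cfsg Cfsg.Agent.Lib.Core.Basic Cfsg.Agent.Lib.FPFThompson.Main
open Cfsg.Agent.Lib.FrobAct.Basic Cfsg.Agent.Lib.FrobAct.Weights Cfsg.Agent.Lib.FrobAct.Irr
open Cfsg.Agent.Lib.FrobAct.Sec
open Cfsg.Agent.Lib.Coprime.Action
open Cfsg.Agent.Lib.Ward.Chief Cfsg.Agent.Lib.Ward.Main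
open scoped commutatorElement

universe u v

section Gen

variable {A : Type*} [Group A] [Finite A]

/-- A generator of the normal subgroup of order `p > q`. -/
theorem exists_gen {p q : ℕ} (hp : p.Prime) (hq : q.Prime) (hlt : q < p) (hA : Nat.card A = p * q)
    (hna : ¬ IsMulCommutative A) :
    ∃ a₀ : A, a₀ ≠ 1 ∧ a₀ ^ p = 1 ∧ (∀ b : A, b * a₀ * b⁻¹ ∈ Subgroup.zpowers a₀) ∧
      ∃ b : A, b * a₀ ≠ a₀ * b := by
  haveI : Fact p.Prime := ⟨hp⟩
  haveI : Fact q.Prime := ⟨hq⟩
  obtain ⟨a₀, ha₀⟩ := exists_prime_orderOf_dvd_card' (G := A) p (by rw [hA]; exact dvd_mul_right p q)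
  have ha₁ : a₀ ≠ 1 := by
    rintro rfl
    rw [orderOf_one] at ha₀
    exact hp.one_lt.ne ha₀
  have hp1 : a₀ ^ p = 1 := by rw [← ha₀]; exact pow_orderOf_eq_one a₀
  let H := Subgroup.zpowers a₀
  have hcH : Nat.card H = p := by rw [Nat.card_zpowers, ha₀]
  have hidx : H.index = q := by
    have h1 := H.card_mul_index
    rw [hcH, hA] at h1
    exact Nat.eq_of_mul_eq_mul_left hp.pos h1
  have hmf : (Nat.card A).minFac = q := by
    rw [hA]
    have hne : p * q ≠ 1 := Nat.ne_of_gt (Nat.one_lt_mul_iff.mpr ⟨hp.pos, hq.pos, Or.inl hp.one_lt⟩)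
    have h1 := Nat.minFac_prime hne
    have h2 := Nat.minFac_dvd (p * q)
    have h3 : (p * q).minFac ≤ q := Nat.minFac_le_of_dvd hq.two_le (dvd_mul_left q p)
    rcases (h1.dvd_mul).mp h2 with h4 | h4
    · have h5 := (Nat.prime_dvd_prime_iff_eq h1 hp).mp h4
      omega
    · exact (Nat.prime_dvd_prime_iff_eq h1 hq).mp h4
  haveI hHn : H.Normal := Subgroup.normal_of_index_eq_minFac_card (by rw [hidx, hmf])
  refine ⟨a₀, ha₁, hp1, fun b => hHn.conj_mem a₀ (Subgroup.mem_zpowers a₀) b, ?_⟩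
  by_contra hcon
  push Not at hcon
  apply hna
  have hle : H ≤ Subgroup.center A := by
    rw [Subgroup.zpowers_le, Subgroup.mem_center_iff]
    exact hcon
  haveI : IsCyclic (A ⧸ H) := by
    apply isCyclic_of_prime_card (p := q)
    rw [← Subgroup.index_eq_card, hidx]
  have hc := commutative_of_cyclic_center_quotient (QuotientGroup.mk' H) (by
    rw [QuotientGroup.ker_mk']
    exact hle)
  exact ⟨⟨hc⟩⟩

/-- A coset fixed by `A` is fixed pointwise. -/
theorem coset_fixed' {G : Type*} [Group G] [Finite G] [Group.IsSolvable G] (α : A →* MulAut G)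
    (N : Subgroup G) (hN : ∀ a, ∀ x ∈ N, α a x ∈ N) (hcop : (Nat.card A).Coprime (Nat.card G))
    (hfix : ∀ x, (∀ a, α a x = x) → x = 1) {g : G} (hg : ∀ a, g⁻¹ * α a g ∈ N) : g ∈ N := by
  let Γ := G ⋊[α] A
  haveI : Finite Γ := Finite.of_equiv (G × A) SemidirectProduct.equivProd.symm
  let inl : G →* Γ := SemidirectProduct.inl
  let inr : A →* Γ := SemidirectProduct.inr
  have hinl : Function.Injective inl := SemidirectProduct.inl_injective
  have hinr : Function.Injective inr := SemidirectProduct.inr_injective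
  have hconj : ∀ a x, inr a * inl x * (inr a)⁻¹ = inl (α a x) := by
    intro a x
    have h1 := SemidirectProduct.inl_aut (φ := α) a x
    rw [map_inv] at h1
    exact h1.symm
  let A' : Subgroup Γ := inr.range
  let K : Subgroup Γ := inl.range
  let N' : Subgroup Γ := N.map inl
  have hAK : A' ≤ Subgroup.normalizer (K : Set Γ) := by
    rintro _ ⟨a, rfl⟩
    apply IsF.mem_normalizer_of_conj
    rintro _ ⟨x, rfl⟩
    rw [hconj]
    exact ⟨_, rfl⟩
  have hcA : Nat.card A' = Nat.card A :=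
    (Nat.card_congr (MonoidHom.ofInjective hinr).toEquiv).symm
  have hcK : Nat.card K = Nat.card G :=
    (Nat.card_congr (MonoidHom.ofInjective hinl).toEquiv).symm
  have hsolv : Group.IsSolvable K := solvable_of_surjective (f := inl.rangeRestrict) inl.rangeRestrict_surjective
  obtain ⟨n, ⟨n₀, hn₀, rfl⟩, hmem⟩ := exists_fixed_in_coset N' (A := A') (K := K) (k := inl g) hAK
    (by rw [hcA, hcK]; exact hcop) (Or.inr hsolv)
    (by
      rintro _ ⟨x, -, rfl⟩
      exact ⟨x, rfl⟩)
    (by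
      rintro _ ⟨a, rfl⟩
      apply IsF.mem_normalizer_of_conj
      rintro _ ⟨x, hx, rfl⟩
      rw [hconj]
      exact ⟨_, hN a x hx, rfl⟩)
    ⟨g, rfl⟩
    (by
      rintro _ ⟨a, rfl⟩
      refine ⟨g⁻¹ * α a g, hg a, ?_⟩
      rw [map_mul, map_inv, ← hconj]
      simp only [mul_assoc])
  have h1 : g * n₀ = 1 := by
    apply hfix
    intro a
    apply hinl
    rw [← hconj, map_mul]
    have h2 := Subgroup.mem_centralizer_iff.mp hmem.2 (inr a) ⟨a, rfl⟩
    have h3 : inr a * (inl g * inl n₀) = (inl g * inl n₀) * inr a := h2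
    rw [h3, mul_inv_cancel_right]
  have h2 : g = n₀⁻¹ := eq_inv_of_mul_eq_one_left h1
  rw [h2]
  exact N.inv_mem hn₀

end Gen

section OnTypes

variable {X A M : Type*} [Group X] [Finite X] [Group A] [Finite A] [CommGroup M] [Finite M]

/-- The data on `A`. -/
structure AData (p q : ℕ) (a₀ : A) : Prop where
  hp : p.Prime
  hq : q.Prime
  hpq : p ≠ q
  card : Nat.card A = p * q
  a1 : a₀ ≠ 1
  ap : a₀ ^ p = 1
  anorm : ∀ b : A, b * a₀ * b⁻¹ ∈ Subgroup.zpowers a₀
  nonab : ∃ b : A, b * a₀ ≠ a₀ * b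

/-- The hom to the automorphisms. -/
def tauHom (α : A →* MulAut X) (ρ : X →* MulAut M) (σ : A →* MulAut M)
    (compat : ∀ a x v, σ a (ρ x v) = ρ (α a x) (σ a v)) : X ⋊[α] A →* MulAut M :=
  SemidirectProduct.lift ρ σ (by
    intro a
    ext x v
    have h1 := compat a x ((σ a)⁻¹ v)
    simp only [MulAut.apply_inv_self] at h1
    exact h1.symm)

/-- The standing hypotheses from the data on types. -/
theorem irr_of_type {r p q : ℕ} {a₀ : A} (hA : AData p q a₀) (α : A →* MulAut X) (ρ : X →* MulAut M)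
    (σ : A →* MulAut M) (compat : ∀ a x v, σ a (ρ x v) = ρ (α a x) (σ a v))
    (hsolv : Group.IsSolvable X) (hfix : ∀ x, (∀ a, α a x = x) → x = 1)
    (hVfix : ∀ v, (∀ a, σ a v = v) → v = 1) (hρ : Function.Injective ρ) (hr : r.Prime)
    (hexp : ∀ v : M, v ^ r = 1) (hVr : ∃ k, Nat.card M = r ^ k) (hrA : (Nat.card A).Coprime r)
    (hAX : (Nat.card A).Coprime (Nat.card X))
    (hirr : ∀ W : Subgroup M, (∀ x, ∀ w ∈ W, ρ x w ∈ W) → (∀ a, ∀ w ∈ W, σ a w ∈ W) → W ≠ ⊥ → W = ⊤) :
    letI : DistribMulAction (X ⋊[α] A) (Additive M) := addAct (tauHom α ρ σ compat)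
    haveI : Finite (X ⋊[α] A) := Finite.of_equiv (X × A) SemidirectProduct.equivProd.symm
    Irr (Additive M) r p q ((SemidirectProduct.inr : A →* X ⋊[α] A).range)
      (SemidirectProduct.inr a₀) ((SemidirectProduct.inl : X →* X ⋊[α] A).range) := by
  letI inst : DistribMulAction (X ⋊[α] A) (Additive M) := addAct (tauHom α ρ σ compat)
  haveI : Finite (X ⋊[α] A) := Finite.of_equiv (X × A) SemidirectProduct.equivProd.symm
  let Γ := X ⋊[α] A
  let inl : X →* Γ := SemidirectProduct.inl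
  let inr : A →* Γ := SemidirectProduct.inr
  have hinl : Function.Injective inl := SemidirectProduct.inl_injective
  have hinr : Function.Injective inr := SemidirectProduct.inr_injective
  let τ := tauHom α ρ σ compat
  have smul_inl : ∀ x v, (inl x : Γ) • (v : Additive M) = Additive.ofMul (ρ x v.toMul) := by
    intro x v
    show Additive.ofMul (τ (inl x) v.toMul) = _
    have : τ (inl x) = ρ x := SemidirectProduct.lift_inl _ _ _ _
    rw [this]
  have smul_inr : ∀ a v, (inr a : Γ) • (v : Additive M) = Additive.ofMul (σ a v.toMul) := by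
    intro a v
    show Additive.ofMul (τ (inr a) v.toMul) = _
    have : τ (inr a) = σ a := SemidirectProduct.lift_inr _ _ _ _
    rw [this]
  have hconj : ∀ a x, inr a * inl x * (inr a)⁻¹ = inl (α a x) := by
    intro a x
    have h1 := SemidirectProduct.inl_aut (φ := α) a x
    rw [map_inv] at h1
    exact h1.symm
  have hcA : Nat.card inr.range = Nat.card A :=
    (Nat.card_congr (MonoidHom.ofInjective hinr).toEquiv).symm
  have hcK : Nat.card inl.range = Nat.card X :=
    (Nat.card_congr (MonoidHom.ofInjective hinl).toEquiv).symm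
  have hcM : Nat.card (Additive M) = Nat.card M := rfl
  obtain ⟨k, hk⟩ := hVr
  refine
    { F := ?_
      Xn := ?_
      top := ?_
      rprime := hr
      Vexp := ?_
      Vr := ⟨k, hk⟩
      Ar := hrA |> fun h0 => by rw [hcA]; exact h0
      AV := by rw [hcA, hcM, hk]; exact Nat.Coprime.pow_right k hrA
      AX := by rw [hcA, hcK]; exact hAX
      Xsol := solvable_of_surjective (f := inl.rangeRestrict) inl.rangeRestrict_surjective
      Xfix := ?_
      Vfix := ?_
      Xf := ?_
      irr := ?_ }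
  · refine
      { hp := hA.hp
        hq := hA.hq
        hpq := hA.hpq
        card := by rw [hcA]; exact hA.card
        aA := ⟨a₀, rfl⟩
        a1 := fun h1 => hA.a1 (hinr (h1.trans (map_one inr).symm))
        ap := by
          show (inr a₀) ^ p = 1
          rw [← map_pow, hA.ap, map_one]
        anorm := ?_
        nonab := ?_ }
    · rintro _ ⟨b, rfl⟩
      obtain ⟨i, hi⟩ := Subgroup.mem_zpowers_iff.mp (hA.anorm b)
      refine Subgroup.mem_zpowers_iff.mpr ⟨i, ?_⟩
      show (inr a₀) ^ i = _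
      rw [← map_zpow, hi, map_mul, map_mul, map_inv]
    · obtain ⟨b, hb⟩ := hA.nonab
      refine ⟨inr b, ⟨b, rfl⟩, fun h1 => hb (hinr ?_)⟩
      rw [map_mul, map_mul]
      exact h1
  · show (inl.range).Normal
    have : inl.range = (SemidirectProduct.rightHom : Γ →* A).ker :=
      SemidirectProduct.range_inl_eq_ker_rightHom
    rw [this]
    exact MonoidHom.normal_ker _
  · rw [eq_top_iff]
    intro x _
    have e := SemidirectProduct.inl_left_mul_inr_right x
    rw [← e]
    exact Subgroup.mul_mem _ (Subgroup.mem_sup_left ⟨_, rfl⟩) (Subgroup.mem_sup_right ⟨_, rfl⟩)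
  · intro v
    show Additive.ofMul (v.toMul ^ r) = 0
    rw [hexp]
    rfl
  · rintro _ ⟨x, rfl⟩ h1
    have h2 : x = 1 := hfix x fun a => hinl ((hconj a x).symm.trans (h1 _ ⟨a, rfl⟩))
    rw [h2, map_one]
  · intro v hv
    have h1 : v.toMul = 1 := hVfix _ fun a => by
      have h2 := hv _ ⟨a, rfl⟩
      rw [smul_inr] at h2
      exact congrArg Additive.toMul h2
    exact congrArg Additive.ofMul h1
  · rintro _ ⟨x, rfl⟩ h1
    have h2 : x = 1 := by
      apply hρ
      rw [map_one]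
      ext v
      have h3 := h1 (Additive.ofMul v)
      rw [smul_inl] at h3
      exact congrArg Additive.toMul h3
    rw [h2, map_one]
  · intro W hW1 hW2 hne
    let W' : Subgroup M :=
      { carrier := {v | Additive.ofMul v ∈ W}
        mul_mem' := fun {a b} ha hb => W.add_mem ha hb
        one_mem' := W.zero_mem
        inv_mem' := fun {a} ha => W.neg_mem ha }
    have htop : W' = ⊤ := by
      apply hirr
      · intro x w hw
        have h1 := hW1 (inl x) ⟨x, rfl⟩ (Additive.ofMul w) hw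
        rw [smul_inl] at h1
        exact h1
      · intro a w hw
        have h1 := hW2 (inr a) ⟨a, rfl⟩ (Additive.ofMul w) hw
        rw [smul_inr] at h1
        exact h1
      · intro hbot
        apply hne
        rw [eq_bot_iff]
        intro v hv
        have h1 : v.toMul ∈ W' := hv
        rw [hbot, Subgroup.mem_bot] at h1
        exact congrArg Additive.ofMul h1
    rw [eq_top_iff]
    intro v _
    have h1 : v.toMul ∈ W' := by rw [htop]; exact Subgroup.mem_top _
    exact h1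

end OnTypes

/-- The symmetric case, on types. -/
theorem abelian_of_type {X A M : Type*} [Group X] [Finite X] [Group A] [Finite A] [CommGroup M] [Finite M]
    {r : ℕ} {a₀ : A} (hA : AData 3 2 a₀) (α : A →* MulAut X) (ρ : X →* MulAut M)
    (σ : A →* MulAut M) (compat : ∀ a x v, σ a (ρ x v) = ρ (α a x) (σ a v))
    (hsolv : Group.IsSolvable X) (hfix : ∀ x, (∀ a, α a x = x) → x = 1)
    (hVfix : ∀ v, (∀ a, σ a v = v) → v = 1) (hρ : Function.Injective ρ) (hr : r.Prime)
    (hexp : ∀ v : M, v ^ r = 1) (hVr : ∃ k, Nat.card M = r ^ k) (hrA : (Nat.card A).Coprime r)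
    (hAX : (Nat.card A).Coprime (Nat.card X))
    (hirr : ∀ W : Subgroup M, (∀ x, ∀ w ∈ W, ρ x w ∈ W) → (∀ a, ∀ w ∈ W, σ a w ∈ W) → W ≠ ⊥ → W = ⊤)
    (x y : X) : x * y = y * x := by
  letI : DistribMulAction (X ⋊[α] A) (Additive M) := addAct (tauHom α ρ σ compat)
  haveI : Finite (X ⋊[α] A) := Finite.of_equiv (X × A) SemidirectProduct.equivProd.symm
  have hI := irr_of_type hA α ρ σ compat hsolv hfix hVfix hρ hr hexp hVr hrA hAX hirr
  have h1 := Cfsg.Agent.Lib.FrobAct.Sec.abelian hI (x₁ := SemidirectProduct.inl x) (x₂ := SemidirectProduct.inl y) ⟨x, rfl⟩ ⟨y, rfl⟩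
  apply SemidirectProduct.inl_injective (φ := α)
  rw [map_mul, map_mul]
  exact h1

/-- The chief factor reduction. -/
theorem chief_step {A : Type v} [Group A] [Finite A] (Q : (X : Type u) → [Group X] → Prop)
    (hchief : ∀ (X M : Type u) [Group X] [Finite X] [Group M] [Finite M] (r : ℕ) (_ : r.Prime)
      (_ : ∀ a b : M, a * b = b * a) (α : A →* MulAut X) (ρ : X →* MulAut M) (σ : A →* MulAut M)
      (_ : ∀ a x v, σ a (ρ x v) = ρ (α a x) (σ a v)) (_ : Group.IsSolvable X)
      (_ : ∀ x, (∀ a, α a x = x) → x = 1) (_ : ∀ v, (∀ a, σ a v = v) → v = 1)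
      (_ : Function.Injective ρ) (_ : ∀ v : M, v ^ r = 1) (_ : ∃ k, Nat.card M = r ^ k)
      (_ : (Nat.card A).Coprime r) (_ : (Nat.card A).Coprime (Nat.card X))
      (_ : ∀ W : Subgroup M, (∀ x, ∀ w ∈ W, ρ x w ∈ W) → (∀ a, ∀ w ∈ W, σ a w ∈ W) → W ≠ ⊥ → W = ⊤),
      Q X)
    (G : Type u) [Group G] [Finite G] [hsolv : Group.IsSolvable G] [Nontrivial G] (α : A →* MulAut G)
    (hfix : ∀ x, (∀ a, α a x = x) → x = 1) (hcop : (Nat.card A).Coprime (Nat.card G)) :
    ∃ (V₀ : Subgroup G) (hn : V₀.Normal), V₀ ≠ ⊥ ∧ (∀ a, ∀ x ∈ V₀, α a x ∈ V₀) ∧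
      Q (G ⧸ (@MulAut.conjNormal G _ V₀ hn).ker) := by
  let F : Set (Subgroup G) := {V | V ≠ ⊥ ∧ V.Normal ∧ ∀ a, ∀ x ∈ V, α a x ∈ V}
  have hF : F.Nonempty := ⟨⊤, top_ne_bot, inferInstance, fun _ _ _ => trivial⟩
  obtain ⟨V₀, hV₀⟩ := (Set.toFinite F).exists_minimal hF
  obtain ⟨hV₀1, hV₀n, hV₀α⟩ := hV₀.prop
  haveI := hV₀n
  have hmin : ∀ U : Subgroup G, U ≠ ⊥ → U.Normal → (∀ a, ∀ x ∈ U, α a x ∈ U) → U ≤ V₀ → U = V₀ :=
    fun U h1 h2 h3 h4 => le_antisymm h4 (hV₀.le_of_le ⟨h1, h2, h3⟩ h4)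
  have hcommV : ⁅V₀, V₀⁆ = ⊥ := by
    by_contra hne
    have hlt := Group.IsSolvable.commutator_lt_of_ne_bot hV₀1
    have hinv : ∀ a, ∀ x ∈ ⁅V₀, V₀⁆, α a x ∈ ⁅V₀, V₀⁆ := by
      intro a x hx
      have h1 : V₀.map (α a).toMonoidHom ≤ V₀ := by
        rintro _ ⟨v, hv, rfl⟩
        exact hV₀α a v hv
      have h2 : (⁅V₀, V₀⁆ : Subgroup G).map (α a).toMonoidHom ≤ ⁅V₀, V₀⁆ := by
        rw [Subgroup.map_commutator]
        exact Subgroup.commutator_mono h1 h1
      exact h2 ⟨x, hx, rfl⟩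
    exact hlt.ne (hmin _ hne inferInstance hinv hlt.le)
  have hMcomm : ∀ a b : V₀, a * b = b * a := by
    intro a b
    apply Subtype.ext
    have h1 : ⁅(a : G), (b : G)⁆ ∈ ⁅V₀, V₀⁆ := Subgroup.commutator_mem_commutator a.2 b.2
    rw [hcommV, Subgroup.mem_bot, commutatorElement_eq_one_iff_mul_comm] at h1
    exact h1
  have hcardV : Nat.card V₀ ≠ 1 := by
    intro h1
    exact hV₀1 (Subgroup.eq_bot_of_card_eq V₀ h1)
  obtain ⟨r, hr, hrd⟩ := Nat.exists_prime_and_dvd hcardV
  haveI : Fact r.Prime := ⟨hr⟩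
  let V₁ : Subgroup G :=
    { carrier := {x | x ∈ V₀ ∧ x ^ r = 1}
      mul_mem' := by
        rintro a b ⟨h1, h2⟩ ⟨k1, k2⟩
        refine ⟨V₀.mul_mem h1 k1, ?_⟩
        have hc : Commute a b := congrArg Subtype.val (hMcomm ⟨a, h1⟩ ⟨b, k1⟩)
        rw [hc.mul_pow, h2, k2, one_mul]
      one_mem' := ⟨V₀.one_mem, one_pow r⟩
      inv_mem' := by
        rintro a ⟨h1, h2⟩
        exact ⟨V₀.inv_mem h1, by rw [inv_pow, h2, inv_one]⟩ }
  have hV₁ : V₁ = V₀ := by
    apply hmin
    · obtain ⟨y, hy⟩ := exists_prime_orderOf_dvd_card' r hrd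
      intro hbot
      have h1 : (y : G) ∈ V₁ := by
        refine ⟨y.2, ?_⟩
        have := pow_orderOf_eq_one y
        rw [hy] at this
        exact congrArg Subtype.val this
      rw [hbot, Subgroup.mem_bot] at h1
      have h2 : y = 1 := Subtype.ext h1
      rw [h2, orderOf_one] at hy
      exact hr.one_lt.ne hy
    · constructor
      rintro x ⟨h1, h2⟩ g
      refine ⟨hV₀n.conj_mem x h1 g, ?_⟩
      rw [conj_pow, h2, mul_one, mul_inv_cancel]
    · rintro a x ⟨h1, h2⟩
      refine ⟨hV₀α a x h1, ?_⟩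
      rw [← map_pow, h2, map_one]
    · exact fun x hx => hx.1
  have hexp : ∀ v : V₀, v ^ r = 1 := by
    intro g
    apply Subtype.ext
    have h1 : (g : G) ∈ V₁ := by rw [hV₁]; exact g.2
    simpa using h1.2
  have hVr : ∃ k, Nat.card V₀ = r ^ k := by
    apply IsPGroup.iff_card.mp
    intro g
    exact ⟨1, by simpa using hexp g⟩
  have hrA : (Nat.card A).Coprime r :=
    Nat.Coprime.coprime_dvd_right (hrd.trans (Subgroup.card_subgroup_dvd_card V₀)) hcop
  let ρ₀ : G →* MulAut V₀ := MulAut.conjNormal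
  have hρ₀ : ∀ (g : G) (v : V₀), ((ρ₀ g v : V₀) : G) = g * v * g⁻¹ := fun g v => MulAut.conjNormal_apply g v
  let C : Subgroup G := ρ₀.ker
  have hCmem : ∀ x, x ∈ C ↔ ∀ v : V₀, x * v * x⁻¹ = v := by
    intro x
    constructor
    · intro hx v
      have h1 : ρ₀ x = 1 := hx
      rw [← hρ₀, h1]
      rfl
    · intro hx
      show ρ₀ x = 1
      ext v
      rw [hρ₀, hx v]
      rfl
  have hCα : ∀ a, ∀ x ∈ C, α a x ∈ C := by
    intro a x hx
    rw [hCmem] at hx ⊢
    intro v
    have h1 : α a⁻¹ v ∈ V₀ := hV₀α a⁻¹ v v.2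
    have h2 := hx ⟨_, h1⟩
    have h3 := congrArg (α a) h2
    simp only [map_mul, map_inv] at h3
    rw [MulAut.apply_inv_self] at h3
    exact h3
  let X := G ⧸ C
  let ρ : X →* MulAut V₀ := QuotientGroup.kerLift ρ₀
  let αX : A →* MulAut X := quotHom α C hCα
  let σ : A →* MulAut V₀ :=
    { toFun := fun a => restrictEquiv (α a) V₀ (hV₀α a)
      map_one' := by
        ext v
        show α 1 (v : G) = v
        rw [map_one]; rfl
      map_mul' := fun a b => by
        ext v
        show α (a * b) (v : G) = α a (α b (v : G))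
        rw [map_mul]; rfl }
  have hσ : ∀ a (v : V₀), ((σ a v : V₀) : G) = α a v := fun _ _ => rfl
  have hρ : ∀ (g : G) (v : V₀), ((ρ (g : X) v : V₀) : G) = g * v * g⁻¹ := fun g v => hρ₀ g v
  have compat : ∀ a x v, σ a (ρ x v) = ρ (αX a x) (σ a v) := by
    intro a x v
    induction x using QuotientGroup.induction_on with
    | H g =>
      apply Subtype.ext
      rw [hσ, hρ]
      have e : αX a (g : X) = ((α a g : G) : X) := rfl
      rw [e, hρ, hσ]
      simp
  have hfixX : ∀ x : X, (∀ a, αX a x = x) → x = 1 := by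
    intro x
    induction x using QuotientGroup.induction_on with
    | H g =>
      intro h
      have hg : g ∈ C := coset_fixed' α C hCα hcop hfix fun a => by
        have h1 : ((α a g : G) : X) = (g : X) := h a
        exact QuotientGroup.eq.mp h1.symm
      exact (QuotientGroup.eq_one_iff g).mpr hg
  have hVfix : ∀ v : V₀, (∀ a, σ a v = v) → v = 1 := by
    intro v hv
    apply Subtype.ext
    exact hfix _ fun a => congrArg Subtype.val (hv a)
  have hρinj : Function.Injective ρ := QuotientGroup.kerLift_injective ρ₀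
  have hXp : (Nat.card A).Coprime (Nat.card X) :=
    Nat.Coprime.coprime_dvd_right (Subgroup.card_quotient_dvd_card C) hcop
  have hirr : ∀ W : Subgroup V₀, (∀ x, ∀ w ∈ W, ρ x w ∈ W) → (∀ a, ∀ w ∈ W, σ a w ∈ W) →
      W ≠ ⊥ → W = ⊤ := by
    intro W hW1 hW2 hWne
    have hW' : W.map V₀.subtype = V₀ := by
      apply hmin
      · intro hbot
        apply hWne
        exact (Subgroup.map_eq_bot_iff_of_injective _ V₀.subtype_injective).mp hbot
      · constructor
        rintro _ ⟨w, hw, rfl⟩ g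
        exact ⟨ρ (g : X) w, hW1 _ w hw, hρ g w⟩
      · rintro a _ ⟨w, hw, rfl⟩
        exact ⟨σ a w, hW2 a w hw, rfl⟩
      · exact Subgroup.map_subtype_le W
    rw [eq_top_iff]
    intro v _
    have h1 : (v : G) ∈ W.map V₀.subtype := by rw [hW']; exact v.2
    obtain ⟨w, hw, hwv⟩ := h1
    have : w = v := Subtype.ext hwv
    rwa [← this]
  haveI hXsolv : Group.IsSolvable X := solvable_of_surjective (QuotientGroup.mk'_surjective C)
  exact ⟨V₀, hV₀n, hV₀1, hV₀α, hchief X V₀ r hr hMcomm αX ρ σ compat hXsolv hfixX hVfix hρinj hexp hVr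
    hrA hXp hirr⟩

/-- **The derived subgroup is nilpotent.** -/
theorem derived_ind {A : Type v} [Group A] [Finite A] {a₀ : A} (hA : AData 3 2 a₀) :
    ∀ (n : ℕ) (G : Type u) [Group G] [Finite G], Nat.card G = n → Group.IsSolvable G →
      ∀ α : A →* MulAut G, (∀ x, (∀ a, α a x = x) → x = 1) → (Nat.card A).Coprime (Nat.card G) →
      Group.IsNilpotent (commutator G) := by
  intro n
  induction n using Nat.strong_induction_on with
  | _ n IH =>
  intro G _ _ hn hsolv α hfix hcop
  by_cases htriv : Subsingleton G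
  · infer_instance
  rw [not_subsingleton_iff_nontrivial] at htriv
  obtain ⟨V₀, hV₀n, hV₀1, hV₀α, hQ⟩ := chief_step (A := A) (fun (X : Type u) [Group X] => ∀ x y : X, x * y = y * x)
    (fun X M _ _ _ _ r hr hMc α ρ σ compat hsolv hfix hVfix hρ hexp hVr hrA hAX hirr => by
      letI : CommGroup M := { ‹Group M› with mul_comm := hMc }
      exact abelian_of_type hA α ρ σ compat hsolv hfix hVfix hρ hr hexp hVr hrA hAX hirr) G α hfix hcop
  haveI := hV₀n
  have hlt : Nat.card (G ⧸ V₀) < n := by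
    have h1 := Subgroup.card_eq_card_quotient_mul_card_subgroup V₀
    rw [hn] at h1
    have hc : Nat.card V₀ ≠ 1 := fun h => hV₀1 (Subgroup.eq_bot_of_card_eq V₀ h)
    have h2 : 1 < Nat.card V₀ := by
      have := (Nat.card_pos (α := V₀))
      omega
    have h3 : 0 < Nat.card (G ⧸ V₀) := Nat.card_pos
    rw [h1]
    nlinarith
  have hfix₁ : ∀ x : G ⧸ V₀, (∀ a, quotHom α V₀ hV₀α a x = x) → x = 1 := by
    intro x
    induction x using QuotientGroup.induction_on with
    | H g =>
      intro h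
      have hg : g ∈ V₀ := coset_fixed' α V₀ hV₀α hcop hfix fun a => by
        have h1 : ((α a g : G) : G ⧸ V₀) = (g : G ⧸ V₀) := h a
        exact QuotientGroup.eq.mp h1.symm
      exact (QuotientGroup.eq_one_iff g).mpr hg
  haveI hnil := IH _ hlt (G ⧸ V₀) rfl (solvable_of_surjective (QuotientGroup.mk'_surjective V₀))
    (quotHom α V₀ hV₀α) hfix₁ (Nat.Coprime.coprime_dvd_right (Subgroup.card_quotient_dvd_card V₀) hcop)
  let π : G →* G ⧸ V₀ := QuotientGroup.mk' V₀
  let C := (MulAut.conjNormal : G →* MulAut V₀).ker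
  have hcomC : commutator G ≤ C := by
    rw [commutator_def, Subgroup.commutator_le]
    intro g₁ _ g₂ _
    have h1 := hQ (g₁ : G ⧸ C) (g₂ : G ⧸ C)
    have hψ : (QuotientGroup.mk' C) ⁅g₁, g₂⁆ = 1 := by
      rw [map_commutatorElement, commutatorElement_eq_one_iff_mul_comm]
      exact h1
    exact (QuotientGroup.eq_one_iff _).mp hψ
  have hπcom : ∀ x : commutator G, π x ∈ commutator (G ⧸ V₀) := by
    have hle : commutator G ≤ (commutator (G ⧸ V₀)).comap π := by
      rw [commutator_def (G := G), Subgroup.commutator_le]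
      intro g₁ _ g₂ _
      rw [Subgroup.mem_comap, map_commutatorElement, commutator_def]
      exact Subgroup.commutator_mem_commutator (Subgroup.mem_top _) (Subgroup.mem_top _)
    exact fun x => hle x.2
  let f : commutator G →* commutator (G ⧸ V₀) := (π.comp (commutator G).subtype).codRestrict _ hπcom
  refine Subgroup.isNilpotent_of_ker_le_center f ?_
  intro x hx
  rw [Subgroup.mem_center_iff]
  intro y
  have h1 : π x = 1 := congrArg Subtype.val hx
  have h2 : (x : G) ∈ V₀ := (QuotientGroup.eq_one_iff _).mp h1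
  have h3 : (MulAut.conjNormal (y : G) : MulAut V₀) = 1 := hcomC y.2
  have h4 := congrArg (fun e : MulAut V₀ => ((e ⟨x, h2⟩ : V₀) : G)) h3
  have h5 : (y : G) * x * (y : G)⁻¹ = x := by
    have h6 := MulAut.conjNormal_apply (H := V₀) (y : G) ⟨x, h2⟩
    rw [← h6]
    exact h4
  apply Subtype.ext
  show (y : G) * x = x * y
  calc (y : G) * x = (y * x * (y : G)⁻¹) * y := by group
    _ = x * y := by rw [h5]

end Cfsg.Agent.Lib.FrobAct.Wrap
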